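import Mathlib

set_option autoImplicit false

namespace Cfsg.Agent.Lib.Helper8

/-- automorphisms permute the nonidentity elements -/
def autToPerm (H : Type*) [Group H] : MulAut H →* Equiv.Perm {x : H // x ≠ 1} where
  toFun φ := φ.toEquiv.subtypeEquiv (fun x => by
    change x ≠ 1 ↔ φ x ≠ 1
    rw [Ne, Ne, map_eq_one_iff φ φ.injective])
  map_one' := by
    ext x
    rfl
  map_mul' φ ψ := by
    ext x
    rfl

theorem autToPerm_injective (H : Type*) [Group H] : Function.Injective (autToPerm H) := by
  classical
  intro φ ψ h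
  ext x
  by_cases hx : x = 1
  · rw [hx, map_one, map_one]
  · have := congrArg (fun σ : Equiv.Perm {x : H // x ≠ 1} => ((σ ⟨x, hx⟩ : {x : H // x ≠ 1}) : H)) h
    exact this

theorem card_mulAut_dvd_factorial (H : Type*) [Group H] [Finite H] :
    Nat.card (MulAut H) ∣ (Nat.card H - 1).factorial := by
  classical
  have h1 := Subgroup.card_dvd_of_injective (autToPerm H) (autToPerm_injective H)
  rw [Nat.card_perm] at h1
  have h2 : Nat.card {x : H // x ≠ 1} = Nat.card H - 1 := by
    have e1 : Nat.card {x : H // x ≠ 1} = ((Set.univ : Set H) \ {1}).ncard := by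
      rw [← Nat.card_coe_set_eq]
      apply Nat.card_congr
      exact Equiv.subtypeEquivRight (fun R => by simp)
    rw [e1, Set.ncard_sdiff_singleton_of_mem (Set.mem_univ 1), Set.ncard_univ]
  rwa [h2] at h1

end Cfsg.Agent.Lib.Helper8
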