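import Mathlib
import Cfsg.Prelude.Def_Blocks
import Cfsg.Agent.Lib.Helper2.CharGalois
import Cfsg.Agent.Lib.Helper2.CharRational
import Cfsg.Agent.Lib.Helper25.Local
import Cfsg.Agent.Lib.Helper25.BlockIdem
import Cfsg.Agent.Lib.Helper25.BlockOrth
import Cfsg.Agent.Lib.Helper25.ClassProd

set_option autoImplicit false

/-!
Integrality of block sums: for a block `B` relative to a maximal ideal over `q`, the sums
`∑_{χ ∈ B} χ(1) χ(g)` are divisible by the `q`-part of the group order in the ring of algebraic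
integers.  The proof uses the Galois twists `g ↦ g ^ m`: the family of these sums over all
`g` is stable under the Galois group of the cyclotomic field, and every member of the family
divided by the `q`-part of the order is a local integer.
-/

namespace Cfsg.Agent.Lib.Helper8

open Cfsg Cfsg.Agent.Lib.Helper2 Cfsg.Agent.Lib.Helper25

open scoped ComplexConjugate

section poly

theorem coeff_prod_X_sub_C_mem {ι : Type*} (s : Finset ι) (a : ι → ℂ) (S : Subring ℂ)
    (ha : ∀ i ∈ s, a i ∈ S) (j : ℕ) :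
    (∏ i ∈ s, (Polynomial.X - Polynomial.C (a i))).coeff j ∈ S := by
  have h : (∏ i ∈ s, (Polynomial.X - Polynomial.C (a i)))
      ∈ Polynomial.liftsRing S.subtype := by
    apply Subring.prod_mem
    intro i hi
    apply Subring.sub_mem
    · exact (Polynomial.lifts_iff_liftsRing _ _).mp (Polynomial.X_mem_lifts _)
    · exact (Polynomial.lifts_iff_liftsRing _ _).mp
        (Polynomial.C_mem_lifts S.subtype ⟨a i, ha i hi⟩)
  obtain ⟨x, hx⟩ := (Polynomial.lifts_iff_coeff_lifts _).mp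
    ((Polynomial.lifts_iff_liftsRing _ _).mpr h) j
  rw [← hx]
  exact x.2

end poly

section loc

variable {q : ℕ}

theorem isIntegral_natCast_complex (n : ℕ) : IsIntegral ℤ (n : ℂ) := by
  have := isIntegral_algebraMap (R := ℤ) (A := ℂ) (x := (n : ℤ))
  simpa using this

/-- local integers at `M` with a `q`-power multiple integral -/
def locIntSubring (M : Ideal AlgInt) [M.IsPrime] (q : ℕ) : Subring ℂ where
  carrier := {z | MemLocalRing M z ∧ ∃ e : ℕ, IsIntegral ℤ ((q : ℂ) ^ e * z)}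
  mul_mem' := by
    rintro x y ⟨hx, e, he⟩ ⟨hy, f, hf⟩
    refine ⟨MemLocalRing.mul M hx hy, e + f, ?_⟩
    have h : (q : ℂ) ^ (e + f) * (x * y) = ((q : ℂ) ^ e * x) * ((q : ℂ) ^ f * y) := by ring
    rw [h]
    exact he.mul hf
  one_mem' := ⟨memLocalRing_one M, 0, by simpa using isIntegral_one⟩
  add_mem' := by
    rintro x y ⟨hx, e, he⟩ ⟨hy, f, hf⟩
    refine ⟨MemLocalRing.add M hx hy, e + f, ?_⟩
    have h : (q : ℂ) ^ (e + f) * (x + y)
        = (q : ℂ) ^ f * ((q : ℂ) ^ e * x) + (q : ℂ) ^ e * ((q : ℂ) ^ f * y) := by ring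
    rw [h]
    exact (((isIntegral_natCast_complex q).pow f).mul he).add
      (((isIntegral_natCast_complex q).pow e).mul hf)
  zero_mem' := ⟨memLocalRing_zero M, 0, by simpa using isIntegral_zero⟩
  neg_mem' := by
    rintro x ⟨hx, e, he⟩
    refine ⟨MemLocalRing.neg M hx, e, ?_⟩
    rw [mul_neg]
    exact he.neg

theorem mem_locIntSubring_iff (M : Ideal AlgInt) [M.IsPrime] (q : ℕ) (z : ℂ) :
    z ∈ locIntSubring M q ↔ MemLocalRing M z ∧ ∃ e : ℕ, IsIntegral ℤ ((q : ℂ) ^ e * z) :=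
  Iff.rfl

theorem int_dvd_of_memLocalRing_div {M : Ideal AlgInt} [Fact q.Prime] (hM : IsPModular q M)
    (e : ℕ) :
    ∀ z : ℤ, MemLocalRing M ((z : ℂ) / (q : ℂ) ^ e) → ((q : ℤ) ^ e ∣ z) := by
  have hpr := isPrime_of_isPModular hM
  have hq : q.Prime := Fact.out
  have hq0 : (q : ℂ) ≠ 0 := by exact_mod_cast hq.ne_zero
  induction e with
  | zero => intro z _; simp
  | succ e ih =>
    intro z hz
    have h1 : MemLocalRing M ((z : ℂ) / (q : ℂ) ^ e) := by
      have h := MemLocalRing.mul M (memLocalRing_natCast M q) hz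
      have e1 : (q : ℂ) * ((z : ℂ) / (q : ℂ) ^ (e + 1)) = (z : ℂ) / (q : ℂ) ^ e := by
        rw [pow_succ]; field_simp
      rwa [e1] at h
    obtain ⟨z', rfl⟩ := ih z h1
    have h2 : MemLocalRing M ((z' : ℂ) / (q : ℂ)) := by
      have e2 : (((q : ℤ) ^ e * z' : ℤ) : ℂ) / (q : ℂ) ^ (e + 1) = (z' : ℂ) / (q : ℂ) := by
        push_cast; rw [pow_succ]; field_simp
      rwa [e2] at hz
    have h3 : MemLocalIdeal M (z' : ℂ) := by
      have h := MemLocalIdeal.mul_right M (memLocalIdeal_p hM) h2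
      have e3 : (q : ℂ) * ((z' : ℂ) / (q : ℂ)) = (z' : ℂ) := by field_simp
      rwa [e3] at h
    have h4 : (q : ℤ) ∣ z' := by
      have h5 : MemLocalIdeal M ((z'.natAbs : ℕ) : ℂ) := by
        rw [Nat.cast_natAbs]
        rcases abs_choice z' with h | h
        · rw [h]; exact h3
        · rw [h, Int.cast_neg]; exact MemLocalIdeal.neg M h3
      exact Int.natCast_dvd.mpr ((memLocalIdeal_natCast_iff hM _).mp h5)
    obtain ⟨w, rfl⟩ := h4
    exact ⟨w, by ring⟩

theorem rat_int_of_mem_locIntSubring (M : Ideal AlgInt) [M.IsPrime] [Fact q.Prime]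
    (hM : IsPModular q M) (c : ℚ) (hc : (c : ℂ) ∈ locIntSubring M q) :
    ∃ z : ℤ, (c : ℂ) = (z : ℂ) := by
  obtain ⟨h1, e, he⟩ := hc
  have hq : q.Prime := Fact.out
  have hq0 : (q : ℂ) ≠ 0 := by exact_mod_cast hq.ne_zero
  have h2 : IsIntegral ℤ ((q : ℚ) ^ e * c) := by
    have e1 : (q : ℂ) ^ e * (c : ℂ) = algebraMap ℚ ℂ ((q : ℚ) ^ e * c) := by
      simp
    rw [e1] at he
    exact (isIntegral_algebraMap_iff (algebraMap ℚ ℂ).injective).mp he
  obtain ⟨z, hz⟩ := IsIntegrallyClosed.isIntegral_iff.mp h2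
  have h3 : (c : ℂ) = (z : ℂ) / (q : ℂ) ^ e := by
    have h : ((algebraMap ℤ ℚ z : ℚ) : ℂ) = (((q : ℚ) ^ e * c : ℚ) : ℂ) := by rw [hz]
    push_cast at h
    have h' : (z : ℂ) = (q : ℂ) ^ e * (c : ℂ) := by simpa using h
    rw [h']; field_simp
  rw [h3] at h1
  obtain ⟨w, rfl⟩ := int_dvd_of_memLocalRing_div hM e z h1
  refine ⟨w, ?_⟩
  rw [h3]; push_cast; field_simp

end loc

section galois

variable {G : Type*} [Group G] [Fintype G] {q : ℕ} {M : Ideal AlgInt}
variable [Fintype (IrrCharacter G)]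

/-- the block sum `∑_{χ ∈ B} χ(1) χ(h)` -/
noncomputable def bsum (B : Set (IrrCharacter G)) [DecidablePred (· ∈ B)] (h : G) : ℂ :=
  ∑ χ : IrrCharacter G, (if χ ∈ B then (1 : ℂ) else 0) * ((χ : G → ℂ) 1 * (χ : G → ℂ) h)

theorem bsum_eq_blockCoeff (B : Set (IrrCharacter G)) [DecidablePred (· ∈ B)]
    (h : G) : bsum B h = (Nat.card G : ℂ) * blockCoeff B h⁻¹ := by
  have hne : (Nat.card G : ℂ) ≠ 0 := by exact_mod_cast (Nat.card_pos (α := G)).ne'
  rw [blockCoeff_eq_sum, ← mul_assoc, mul_inv_cancel₀ hne, one_mul]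
  unfold bsum
  apply Finset.sum_congr rfl
  intro χ _
  rw [irr_conj_eq_inv, inv_inv]

theorem bsum_isIntegral (B : Set (IrrCharacter G)) [DecidablePred (· ∈ B)] (h : G) :
    IsIntegral ℤ (bsum B h) := by
  unfold bsum
  apply IsIntegral.sum
  intro χ _
  split_ifs
  · rw [one_mul]
    exact (irr_isIntegral χ 1).mul (irr_isIntegral χ h)
  · rw [zero_mul]
    exact isIntegral_zero

/-- the block sums lift to the cyclotomic field, compatibly with the Galois twists -/
theorem bsum_lift (n : ℕ) [NeZero n] (hn : Nat.card G = n)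
    (B : Set (IrrCharacter G)) [DecidablePred (· ∈ B)] (c : ℚ) :
    ∃ Y : G → CycK n, (∀ h : G, cycEmb n (Y h) = (c : ℂ) * bsum B h) ∧
      ∀ (σ : CycK n ≃ₐ[ℚ] CycK n) (m : ℕ), σ (cycZeta n) = cycZeta n ^ m →
        ∀ h : G, σ (Y h) = Y (h ^ m) := by
  have hlift : ∀ (χ : IrrCharacter G) (k : G), ∃ x : CycK n,
      cycEmb n x = (χ : G → ℂ) k ∧
      ∀ (σ : CycK n ≃ₐ[ℚ] CycK n) (m : ℕ), σ (cycZeta n) = cycZeta n ^ m →
        cycEmb n (σ x) = (χ : G → ℂ) (k ^ m) := by
    intro χ k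
    obtain ⟨d, ρ, hρ⟩ := isCharacter_of_isIrrCharacter χ.2
    rw [← hρ]
    exact char_lift_self n ρ k (hn ▸ orderOf_dvd_natCard k)
  choose x hx1 hx2 using hlift
  have key : ∀ (σ : CycK n ≃ₐ[ℚ] CycK n) (m : ℕ), σ (cycZeta n) = cycZeta n ^ m →
      ∀ h : G, cycEmb n (σ (algebraMap ℚ (CycK n) c *
        ∑ χ : IrrCharacter G, (if χ ∈ B then (1 : CycK n) else 0) * (x χ 1 * x χ h)))
        = (c : ℂ) * bsum B (h ^ m) := by
    intro σ m hσ h
    rw [map_mul, map_mul, AlgEquiv.commutes, AlgHom.commutes, map_sum, map_sum]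
    unfold bsum
    congr 1
    apply Finset.sum_congr rfl
    intro χ _
    rw [map_mul, map_mul, map_mul, map_mul, hx2 χ 1 σ m hσ, hx2 χ h σ m hσ, one_pow]
    split_ifs <;> simp
  refine ⟨fun h => algebraMap ℚ (CycK n) c *
    ∑ χ : IrrCharacter G, (if χ ∈ B then (1 : CycK n) else 0) * (x χ 1 * x χ h), ?_, ?_⟩
  · intro h
    have h1 := key AlgEquiv.refl 1 (by simp) h
    simpa using h1
  · intro σ m hσ h
    apply cycEmb_injective n
    rw [key σ m hσ h]
    have h1 := key AlgEquiv.refl 1 (by simp) (h ^ m)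
    simpa using h1.symm

/-- **Integrality of block sums.**  For a union `B` of blocks relative to a maximal ideal over
the prime `q`, the sum `∑_{χ ∈ B} χ(1) χ(g)` divided by the `q`-part of the group order is an
algebraic integer. -/
theorem bsum_div_isIntegral [Fact q.Prime] (hM : IsPModular q M) (B : Set (IrrCharacter G))
    [DecidablePred (· ∈ B)] (hcl : BlockClosed M B) (g : G) :
    IsIntegral ℤ (bsum B g / (q : ℂ) ^ (Nat.card G).factorization q) := by
  classical
  have hpr := isPrime_of_isPModular hM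
  have hq : q.Prime := Fact.out
  have hq0 : (q : ℂ) ≠ 0 := by exact_mod_cast hq.ne_zero
  set b := (Nat.card G).factorization q with hb
  have hnz : NeZero (Nat.card G) := ⟨Nat.card_pos.ne'⟩
  obtain ⟨n', hn'⟩ : (q ^ b) ∣ Nat.card G := Nat.ordProj_dvd (Nat.card G) q
  -- the scaled block sums
  set a : G → ℂ := fun h => (((q : ℚ) ^ b)⁻¹ : ℚ) * bsum B h with ha
  have ha' : ∀ h : G, a h = bsum B h / (q : ℂ) ^ b := by
    intro h
    rw [ha]
    push_cast
    field_simp
  obtain ⟨Y, hY1, hY2⟩ := bsum_lift (Nat.card G) rfl B (((q : ℚ) ^ b)⁻¹ : ℚ)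
  -- membership in the subring
  have hmem : ∀ h : G, a h ∈ locIntSubring M q := by
    intro h
    refine ⟨?_, b, ?_⟩
    · have e1 : a h = (n' : ℂ) * blockCoeff B h⁻¹ := by
        rw [ha' h, bsum_eq_blockCoeff, hn']
        push_cast
        field_simp
      rw [e1]
      exact MemLocalRing.mul M (memLocalRing_natCast M n') (blockCoeff_memLocalRing hM B hcl _)
    · have e2 : (q : ℂ) ^ b * a h = bsum B h := by
        rw [ha' h]; field_simp
      rw [e2]
      exact bsum_isIntegral B h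
  -- the polynomial with roots `a h`
  set FC : Polynomial ℂ := ∏ h : G, (Polynomial.X - Polynomial.C (a h)) with hFC
  set FK : Polynomial (CycK (Nat.card G)) := ∏ h : G, (Polynomial.X - Polynomial.C (Y h))
    with hFK
  have hmap : FK.map (cycEmb (Nat.card G) : CycK (Nat.card G) →+* ℂ) = FC := by
    rw [hFK, hFC, Polynomial.map_prod]
    apply Finset.prod_congr rfl
    intro h _
    rw [Polynomial.map_sub, Polynomial.map_X, Polynomial.map_C]
    congr 2
    exact hY1 h
  have hfix : ∀ (σ : CycK (Nat.card G) ≃ₐ[ℚ] CycK (Nat.card G)) (j : ℕ),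
      σ (FK.coeff j) = FK.coeff j := by
    intro σ j
    obtain ⟨m, hm, hσ⟩ := aut_zeta (Nat.card G) σ
    have h1 : FK.map (σ : CycK (Nat.card G) →+* CycK (Nat.card G)) = FK := by
      rw [hFK, Polynomial.map_prod]
      have h2 : ∀ h : G, (Polynomial.X - Polynomial.C (Y h)).map
          (σ : CycK (Nat.card G) →+* CycK (Nat.card G))
          = Polynomial.X - Polynomial.C (Y (h ^ m)) := by
        intro h
        rw [Polynomial.map_sub, Polynomial.map_X, Polynomial.map_C]
        congr 2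
        exact hY2 σ m hσ h
      rw [Finset.prod_congr rfl (fun h _ => h2 h)]
      exact Fintype.prod_equiv (powCoprime hm.symm)
        (fun h => Polynomial.X - Polynomial.C (Y (h ^ m)))
        (fun h => Polynomial.X - Polynomial.C (Y h)) (fun h => rfl)
    have h3 := congrArg (fun P => Polynomial.coeff P j) h1
    simp only [Polynomial.coeff_map] at h3
    exact h3
  have hrat : ∀ j : ℕ, ∃ c : ℚ, FC.coeff j = (c : ℂ) := by
    intro j
    obtain ⟨c, hc⟩ := (IsGalois.mem_range_algebraMap_iff_fixed (FK.coeff j)).mpr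
      (fun σ => hfix σ j)
    refine ⟨c, ?_⟩
    rw [← hmap, Polynomial.coeff_map, ← hc]
    have := (cycEmb (Nat.card G)).commutes c
    simpa using this
  have hint : ∀ j : ℕ, FC.coeff j ∈ Set.range (Int.castRingHom ℂ) := by
    intro j
    obtain ⟨c, hc⟩ := hrat j
    have h1 : (c : ℂ) ∈ locIntSubring M q := by
      rw [← hc, hFC]
      exact coeff_prod_X_sub_C_mem Finset.univ a (locIntSubring M q) (fun h _ => hmem h) j
    obtain ⟨z, hz⟩ := rat_int_of_mem_locIntSubring M hM c h1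
    exact ⟨z, by rw [hc, hz]; simp⟩
  have hlifts : FC ∈ Polynomial.lifts (Int.castRingHom ℂ) :=
    (Polynomial.lifts_iff_coeff_lifts FC).mpr hint
  have hmonic : FC.Monic := by
    rw [hFC]
    exact Polynomial.monic_prod_of_monic _ _ (fun h _ => Polynomial.monic_X_sub_C (a h))
  obtain ⟨F₁, hF₁, -, hF₁m⟩ := Polynomial.lifts_and_natDegree_eq_and_monic hlifts hmonic
  rw [← ha' g]
  refine ⟨F₁, hF₁m, ?_⟩
  have h1 : Polynomial.eval₂ (algebraMap ℤ ℂ) (a g) F₁ = Polynomial.eval (a g) FC := by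
    rw [← hF₁, Polynomial.eval_map]
    rfl
  rw [h1, hFC, Polynomial.eval_prod]
  apply Finset.prod_eq_zero (Finset.mem_univ g)
  simp

end galois

end Cfsg.Agent.Lib.Helper8
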