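import Mathlib

set_option autoImplicit false

namespace Cfsg.Agent.Lib.Helper8.D8A

theorem arithA (N d1 d2 d3 : ℕ) (t1 t2 t3 : ℤ)
    (ht1 : t1 = 1 ∨ t1 = -1) (ht2 : t2 = 1 ∨ t2 = -1) (ht3 : t3 = 1 ∨ t3 = -1)
    (h1 : 2 ≤ d1) (h2 : 2 ≤ d2) (h3 : d3 = d1 + d2 + 1)
    (hc1 : ((d1 : ℤ) + 2 + 5 * t1) % 8 = 0) (hc2 : ((d2 : ℤ) + 2 + 5 * t2) % 8 = 0)
    (hc3 : ((d3 : ℤ) - 2 + 5 * t3) % 8 = 0)
    (hB : 1 + t1 + t2 - t3 = 0)
    (hN : (N : ℤ) * (d1 * d2 * d3 + d2 * d3 + d1 * d3 - d1 * d2) = 256 * d1 * d2 * d3)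
    (hS : 1 + d1 ^ 2 + d2 ^ 2 + d3 ^ 2 ≤ N) : N = 168 := by
  subst h3
  push_cast at hN hc3
  have hd1 : (2 : ℤ) ≤ d1 := by exact_mod_cast h1
  have hd2 : (2 : ℤ) ≤ d2 := by exact_mod_cast h2
  have hlt : N < 256 := by
    by_contra hge
    push_neg at hge
    have hNge : (256 : ℤ) ≤ N := by exact_mod_cast hge
    have hQ : (0 : ℤ) < (d2 : ℤ) * (d1 + d2 + 1) + d1 * (d1 + d2 + 1) - d1 * d2 := by nlinarith
    have hP : (0 : ℤ) < (d1 : ℤ) * d2 * (d1 + d2 + 1) := by positivity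
    nlinarith [mul_le_mul_of_nonneg_right hNge hQ.le, mul_le_mul_of_nonneg_right hNge hP.le]
  have hb1 : d1 ≤ 15 := by
    by_contra h; push_neg at h; nlinarith
  have hb2 : d2 ≤ 15 := by
    by_contra h; push_neg at h; nlinarith
  rcases ht1 with rfl | rfl <;> rcases ht2 with rfl | rfl <;> rcases ht3 with rfl | rfl <;>
    first
    | omega
    | (interval_cases d1 <;> first
        | omega
        | (interval_cases d2 <;> first
            | omega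
            | (norm_num at hN hS hc1 hc2 hc3 ⊢ <;> omega)))

theorem arithB (N d1 d2 d3 : ℕ) (t1 t2 t3 : ℤ)
    (ht1 : t1 = 1 ∨ t1 = -1) (ht2 : t2 = 1 ∨ t2 = -1) (ht3 : t3 = 1 ∨ t3 = -1)
    (h1 : 2 ≤ d1) (h2 : 2 ≤ d2) (h3 : d3 + 1 = d1 + d2)
    (hc1 : ((d1 : ℤ) - 2 + 5 * t1) % 8 = 0) (hc2 : ((d2 : ℤ) - 2 + 5 * t2) % 8 = 0)
    (hc3 : ((d3 : ℤ) + 2 + 5 * t3) % 8 = 0)
    (hB : 1 - t1 - t2 + t3 = 0)
    (hN : (N : ℤ) * (d1 * d2 * d3 - d2 * d3 - d1 * d3 + d1 * d2) = 256 * d1 * d2 * d3)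
    (hS : 1 + d1 ^ 2 + d2 ^ 2 + d3 ^ 2 ≤ N) : N = 360 := by
  have h1' : 5 ≤ d1 := by rcases ht1 with rfl | rfl <;> omega
  have h2' : 5 ≤ d2 := by rcases ht2 with rfl | rfl <;> omega
  have e3 : (d3 : ℤ) = d1 + d2 - 1 := by omega
  have hS' : (1 : ℤ) + (d1 : ℤ) ^ 2 + (d2 : ℤ) ^ 2 + ((d1 : ℤ) + d2 - 1) ^ 2 ≤ N := by
    rw [← e3]; exact_mod_cast hS
  rw [e3] at hN hc3
  clear hS e3 h3 h1 h2
  have hd1 : (5 : ℤ) ≤ d1 := by exact_mod_cast h1'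
  have hd2 : (5 : ℤ) ≤ d2 := by exact_mod_cast h2'
  have hlt : N < 427 := by
    by_contra hge
    push_neg at hge
    have hNge : (427 : ℤ) ≤ N := by exact_mod_cast hge
    have hP : (0 : ℤ) < (d1 : ℤ) * d2 * (d1 + d2 - 1) := by
      have : (0 : ℤ) < (d1 : ℤ) + d2 - 1 := by linarith
      positivity
    have hR : 3 * ((d1 : ℤ) * d2 * (d1 + d2 - 1))
        ≤ 5 * ((d1 : ℤ) * d2 * (d1 + d2 - 1) - d2 * (d1 + d2 - 1) - d1 * (d1 + d2 - 1) + d1 * d2) := by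
      have h5 : 5 * ((d1 : ℤ) + d2) ≤ 2 * (d1 * d2) := by nlinarith
      have h6 : (0 : ℤ) ≤ (d1 : ℤ) + d2 - 1 := by linarith
      nlinarith [mul_le_mul_of_nonneg_right h5 h6, mul_nonneg (by linarith : (0:ℤ) ≤ d1) (by linarith : (0:ℤ) ≤ d2)]
    have hN0 : (0 : ℤ) ≤ N := by positivity
    nlinarith [mul_le_mul_of_nonneg_left hR hN0,
      mul_le_mul_of_nonneg_right hNge (by linarith : (0:ℤ) ≤ 3 * ((d1 : ℤ) * d2 * (d1 + d2 - 1)))]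
  have hNlt : (N : ℤ) < 427 := by exact_mod_cast hlt
  have hb1 : d1 ≤ 20 := by
    by_contra h; push_neg at h
    have : (21 : ℤ) ≤ d1 := by exact_mod_cast h
    nlinarith [sq_nonneg ((d1 : ℤ) + d2 - 1), sq_nonneg (d2 : ℤ)]
  have hb2 : d2 ≤ 20 := by
    by_contra h; push_neg at h
    have : (21 : ℤ) ≤ d2 := by exact_mod_cast h
    nlinarith [sq_nonneg ((d1 : ℤ) + d2 - 1), sq_nonneg (d1 : ℤ)]
  rcases ht1 with rfl | rfl <;> rcases ht2 with rfl | rfl <;> rcases ht3 with rfl | rfl <;>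
    first
    | omega
    | (interval_cases d1 <;> first
        | omega
        | (interval_cases d2 <;> first
            | omega
            | (norm_num at hN hS' hc1 hc2 hc3 ⊢ <;> omega)))

theorem arith (N n1 n2 n3 : ℕ) (a1 a2 a3 b1 b2 b3 : ℤ)
    (ha1 : a1 = 1 ∨ a1 = -1) (ha2 : a2 = 1 ∨ a2 = -1) (ha3 : a3 = 1 ∨ a3 = -1)
    (hb1 : b1 = 1 ∨ b1 = -1) (hb2 : b2 = 1 ∨ b2 = -1) (hb3 : b3 = 1 ∨ b3 = -1)
    (hn1 : 2 ≤ n1) (hn2 : 2 ≤ n2) (hn3 : 2 ≤ n3)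
    (hc1 : ((n1 : ℤ) + 2 * a1 + 5 * b1) % 8 = 0) (hc2 : ((n2 : ℤ) + 2 * a2 + 5 * b2) % 8 = 0)
    (hc3 : ((n3 : ℤ) + 2 * a3 + 5 * b3) % 8 = 0)
    (hA : 1 + a1 * n1 + a2 * n2 + a3 * n3 = 0)
    (hB : 1 + a1 * b1 + a2 * b2 + a3 * b3 = 0)
    (hN : (N : ℤ) * (n1 * n2 * n3 + a1 * n2 * n3 + a2 * n1 * n3 + a3 * n1 * n2)
      = 256 * n1 * n2 * n3)
    (hS : 1 + n1 ^ 2 + n2 ^ 2 + n3 ^ 2 ≤ N) : N = 168 ∨ N = 360 := by
  rcases ha1 with rfl | rfl <;> rcases ha2 with rfl | rfl <;> rcases ha3 with rfl | rfl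
  · omega
  · left
    exact arithA N n1 n2 n3 b1 b2 b3 hb1 hb2 hb3 hn1 hn2 (by omega) (by omega) (by omega)
      (by omega) (by linarith) (by linear_combination hN) hS
  · left
    exact arithA N n1 n3 n2 b1 b3 b2 hb1 hb3 hb2 hn1 hn3 (by omega) (by omega) (by omega)
      (by omega) (by linarith) (by linear_combination hN) (by linarith)
  · right
    exact arithB N n2 n3 n1 b2 b3 b1 hb2 hb3 hb1 hn2 hn3 (by omega) (by omega) (by omega)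
      (by omega) (by linarith) (by linear_combination hN) (by linarith)
  · left
    exact arithA N n2 n3 n1 b2 b3 b1 hb2 hb3 hb1 hn2 hn3 (by omega) (by omega) (by omega)
      (by omega) (by linarith) (by linear_combination hN) (by linarith)
  · right
    exact arithB N n1 n3 n2 b1 b3 b2 hb1 hb3 hb2 hn1 hn3 (by omega) (by omega) (by omega)
      (by omega) (by linarith) (by linear_combination hN) (by linarith)
  · right
    exact arithB N n1 n2 n3 b1 b2 b3 hb1 hb2 hb3 hn1 hn2 (by omega) (by omega) (by omega)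
      (by omega) (by linarith) (by linear_combination hN) hS
  · omega

end Cfsg.Agent.Lib.Helper8.D8A
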