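import Mathlib
import Cfsg.Prelude.Def_Transfer

set_option autoImplicit false

namespace Cfsg.Agent.Lib.Helper8

/-- a nontrivial element of a subgroup of prime order generates it -/
theorem gen_of_prime_card {G : Type*} [Group G] (Z : Subgroup G) (p : ℕ) (hp : p.Prime)
    (hZ : Nat.card Z = p) (z : G) (hz : z ∈ Z) (hz1 : z ≠ 1) (a : G) (ha : a ∈ Z) :
    ∃ k : ℕ, a = z ^ k := by
  have hfin : Finite Z := Nat.finite_of_card_ne_zero (by rw [hZ]; exact hp.ne_zero)
  have hle : Subgroup.zpowers z ≤ Z := (Subgroup.zpowers_le).2 hz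
  have hdvd : orderOf z ∣ p := by
    rw [← hZ]
    have := orderOf_dvd_natCard (⟨z, hz⟩ : Z)
    rwa [Subgroup.orderOf_mk] at this
  have hord : orderOf z = p := by
    rcases (Nat.dvd_prime hp).1 hdvd with h | h
    · exact absurd (orderOf_eq_one_iff.1 h) hz1
    · exact h
  have heq : Subgroup.zpowers z = Z := by
    apply Subgroup.eq_of_le_of_card_ge hle
    rw [hZ, Nat.card_zpowers, hord]
  have ha' : a ∈ Subgroup.zpowers z := by rw [heq]; exact ha
  have hfo : IsOfFinOrder z := by
    rw [← orderOf_pos_iff, hord]; exact hp.pos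
  rw [← hfo.mem_powers_iff_mem_zpowers] at ha'
  obtain ⟨k, hk⟩ := ha'
  exact ⟨k, hk.symm⟩

/-- in an extraspecial group a noncentral element is conjugate to a nontrivial central
translate of itself -/
theorem exists_conj_mul_center {P : Type*} [Group P] (p : ℕ) (hP : Cfsg.IsExtraspecial p P)
    (x : P) (hx : x ∉ Subgroup.center P) :
    ∃ w z : P, z ∈ Subgroup.center P ∧ z ≠ 1 ∧ w⁻¹ * x * w = x * z := by
  obtain ⟨⟨_, _, hcomm⟩, _⟩ := hP
  rw [Subgroup.mem_center_iff] at hx
  push Not at hx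
  obtain ⟨w, hw⟩ := hx
  refine ⟨w, x⁻¹ * w⁻¹ * x * w, ?_, ?_, by group⟩
  · rw [← hcomm, commutator_def]
    have := Subgroup.commutator_mem_commutator (Subgroup.mem_top x⁻¹) (Subgroup.mem_top w⁻¹)
    rw [commutatorElement_def, inv_inv, inv_inv] at this
    exact this
  · intro h
    apply hw
    have h2 : w * x * (x⁻¹ * w⁻¹ * x * w) = w * x * 1 := by rw [h]
    rw [mul_one] at h2
    rw [← h2]
    group

end Cfsg.Agent.Lib.Helper8
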