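import Mathlib
import Cfsg.Prelude.Def_Characters
import Cfsg.Agent.Lib.Helper2.CharRational
import Cfsg.Agent.Lib.Helper12.GaloisTwist

/-!
# Values of `p`-rational characters on `p`-elements
-/

set_option autoImplicit false

open Cfsg.Agent.Lib.Helper2 Cfsg.Agent.Lib.Helper12
open Module

namespace Cfsg.Agent.Lib.Helper8

/-- a field automorphism of the complex numbers raising all `N`-th roots of unity to the
`m`-th power -/
theorem exists_twist_roots (N : ℕ) (hN : 0 < N) (m : ℕ) (hm : m.Coprime N) :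
    ∃ τ : ℂ ≃+* ℂ, ∀ μ : ℂ, μ ^ N = 1 → τ μ = μ ^ m := by
  have : NeZero N := ⟨hN.ne'⟩
  obtain ⟨σ, hσ⟩ := exists_aut_pow N m hm
  obtain ⟨τ, hτ⟩ := exists_ringEquiv_extending (cycEmb N).toRingHom σ.toRingEquiv
  refine ⟨τ, ?_⟩
  intro μ hμ
  obtain ⟨j, hj⟩ := exists_pow_eq_of_root N μ hμ
  rw [← hj]
  have h1 := hτ (cycZeta N ^ j)
  have h2 : σ.toRingEquiv (cycZeta N ^ j) = (cycZeta N ^ j) ^ m := by
    show σ (cycZeta N ^ j) = _
    rw [map_pow, hσ, ← pow_mul, ← pow_mul, mul_comm]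
  rw [h2] at h1
  rw [← map_pow]
  exact h1

/-- the fixed field of a field automorphism of the complex numbers -/
def fixedIF (τ : ℂ ≃+* ℂ) : IntermediateField ℚ ℂ where
  carrier := {z | τ z = z}
  mul_mem' := by
    intro a b ha hb
    simp only [Set.mem_ofPred_eq] at *
    rw [map_mul, ha, hb]
  one_mem' := map_one τ
  add_mem' := by
    intro a b ha hb
    simp only [Set.mem_ofPred_eq] at *
    rw [map_add, ha, hb]
  zero_mem' := map_zero τ
  algebraMap_mem' := by
    intro q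
    simp
  inv_mem' := by
    intro a ha
    simp only [Set.mem_ofPred_eq] at *
    rw [map_inv₀, ha]

theorem mem_fixedIF (τ : ℂ ≃+* ℂ) (z : ℂ) : z ∈ fixedIF τ ↔ τ z = z := Iff.rfl

variable {G : Type*} [Group G] [Finite G]
variable {V : Type*} [AddCommGroup V] [Module ℂ V] [FiniteDimensional ℂ V]

/-- a character with values in a cyclotomic field of level prime to `p` is invariant under
prime-to-`p` powers on `p`-elements -/
theorem char_pow_of_rational (ρ : Representation ℂ G V) (p : ℕ) (hp : p.Prime) (r : ℕ)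
    (hr : 0 < r) (hpr : ¬ p ∣ r)
    (hrat : ∀ g : G, ρ.character g ∈
      IntermediateField.adjoin ℚ ({Complex.exp (2 * Real.pi * Complex.I / r)} : Set ℂ))
    (x : G) (k : ℕ) (hx : x ^ (p ^ k) = 1) (j : ℕ) (hj : ¬ p ∣ j) :
    ρ.character (x ^ j) = ρ.character x := by
  have hcop : (p ^ k).Coprime r :=
    Nat.Coprime.pow_left k ((Nat.Prime.coprime_iff_not_dvd hp).mpr hpr)
  obtain ⟨m, hm1, hm2⟩ := Nat.chineseRemainder hcop j 1
  obtain ⟨N, hNdef⟩ : ∃ N : ℕ, N = r * p ^ k := ⟨_, rfl⟩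
  have hN : 0 < N := by
    rw [hNdef]
    exact Nat.mul_pos hr (pow_pos hp.pos k)
  have hmN : m.Coprime N := by
    rw [hNdef]
    apply Nat.Coprime.mul_right
    · have h1 : Nat.gcd m r = Nat.gcd 1 r := hm2.gcd_eq
      rw [Nat.Coprime, h1]
      simp
    · have h1 : Nat.gcd m (p ^ k) = Nat.gcd j (p ^ k) := hm1.gcd_eq
      rw [Nat.Coprime, h1]
      exact Nat.Coprime.pow_right k ((Nat.Prime.coprime_iff_not_dvd hp).mpr hj).symm
  obtain ⟨τ, hτ⟩ := exists_twist_roots N hN m hmN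
  obtain ⟨ω, hω⟩ : ∃ ω : ℂ, ω = Complex.exp (2 * Real.pi * Complex.I / r) := ⟨_, rfl⟩
  rw [← hω] at hrat
  have hωr : ω ^ r = 1 := by
    rw [hω, ← Complex.exp_nat_mul]
    have hr0 : (r : ℂ) ≠ 0 := by exact_mod_cast hr.ne'
    have e : (r : ℂ) * (2 * Real.pi * Complex.I / r) = 2 * Real.pi * Complex.I := by
      field_simp
    rw [e, Complex.exp_two_pi_mul_I]
  have hωN : ω ^ N = 1 := by rw [hNdef, pow_mul, hωr, one_pow]
  have hτω : τ ω = ω := by
    rw [hτ ω hωN, pow_eq_pow_mod m hωr]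
    have e : m % r = 1 % r := hm2
    rw [e, ← pow_eq_pow_mod 1 hωr, pow_one]
  have hle : IntermediateField.adjoin ℚ ({ω} : Set ℂ) ≤ fixedIF τ := by
    rw [IntermediateField.adjoin_le_iff]
    intro z hz
    rw [Set.mem_singleton_iff] at hz
    rw [hz]
    exact hτω
  have hfix : τ (ρ.character x) = ρ.character x := hle (hrat x)
  have hdvd : orderOf x ∣ N := by
    rw [hNdef]
    exact (orderOf_dvd_of_pow_eq_one hx).trans (Dvd.intro_left _ rfl)
  have h1 : τ (ρ.character x) = ρ.character (x ^ m) := by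
    rw [char_eq_sum, char_pow_eq_sum, map_sum]
    apply Finset.sum_congr rfl
    intro μ hμ
    have hμN : μ ^ N = 1 := by
      obtain ⟨c, hc⟩ := hdvd
      rw [hc, pow_mul, eig_pow ρ x hμ, one_pow]
    rw [map_mul, map_natCast, hτ μ hμN]
  have h2 : x ^ m = x ^ j := by
    rw [pow_eq_pow_iff_modEq]
    exact hm1.of_dvd (orderOf_dvd_of_pow_eq_one hx)
  rw [← h2, ← h1, hfix]

end Cfsg.Agent.Lib.Helper8
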