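import Mathlib
import Cfsg.Prelude.Def_Characters
import Cfsg.Agent.Lib.Helper2.CharBasic

/-!
# The value of a Galois-stable character at a `p`-element
-/

set_option autoImplicit false

open Cfsg.Agent.Lib.Helper2
open Module

namespace Cfsg.Agent.Lib.Helper8

theorem geom_sum_root (μ : ℂ) (q : ℕ) (hμ : μ ^ q = 1) :
    ∑ j ∈ Finset.range q, μ ^ j = if μ = 1 then (q : ℂ) else 0 := by
  by_cases h : μ = 1
  · rw [if_pos h, h]
    simp
  · rw [if_neg h, geom_sum_eq h, hμ, sub_self, zero_div]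

theorem sum_range_mul_split (p q' : ℕ) (f : ℕ → ℂ) :
    ∑ j ∈ Finset.range (p * q'), f j
      = ∑ i ∈ Finset.range q', ∑ s ∈ Finset.range p, f (p * i + s) := by
  induction q' with
  | zero => simp
  | succ n ih =>
    rw [Nat.mul_succ, Finset.sum_range_add, ih, Finset.sum_range_succ]

theorem sum_pow_prime_pow_eq {R : Type*} [CommRing R] (p : ℕ) (hp : p.Prime) (k : ℕ)
    {ι : Type*} (s : Finset ι) (a : ι → R) :
    ∃ r : R, (∑ i ∈ s, a i) ^ p ^ k = ∑ i ∈ s, a i ^ p ^ k + p * r := by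
  classical
  induction s using Finset.induction_on with
  | empty => exact ⟨0, by simp [zero_pow (pow_pos hp.pos k).ne']⟩
  | insert i s hi ih =>
    obtain ⟨r, hr⟩ := ih
    obtain ⟨r', hr'⟩ := exists_add_pow_prime_pow_eq hp (a i) (∑ j ∈ s, a j) k
    refine ⟨a i * (∑ j ∈ s, a j) * r' + r, ?_⟩
    rw [Finset.sum_insert hi, Finset.sum_insert hi, hr', hr]
    ring

theorem int_of_isIntegral_of_mul {v : ℂ} (hv : IsIntegral ℤ v) (a d : ℤ) (hd : d ≠ 0)
    (h : (d : ℂ) * v = a) : ∃ z : ℤ, v = z := by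
  have hd' : (d : ℂ) ≠ 0 := by exact_mod_cast hd
  have h1 : v = algebraMap ℚ ℂ ((a : ℚ) / (d : ℚ)) := by
    have : v = (a : ℂ) / (d : ℂ) := by
      rw [← h]
      field_simp
    rw [this]
    simp
  rw [h1, isIntegral_algebraMap_iff (algebraMap ℚ ℂ).injective] at hv
  obtain ⟨m, hm⟩ := IsIntegrallyClosed.isIntegral_iff.mp hv
  refine ⟨m, ?_⟩
  rw [h1, ← hm]
  simp

variable {G : Type*} [Group G] [Finite G]
variable {V : Type*} [AddCommGroup V] [Module ℂ V] [FiniteDimensional ℂ V]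

theorem char_p_element_AB (ρ : Representation ℂ G V) (p : ℕ) (hp : p.Prime) (x : G) (k : ℕ)
    (hx : x ^ (p ^ (k + 1)) = 1)
    (hinv : ∀ j : ℕ, ¬ p ∣ j → ρ.character (x ^ j) = ρ.character x) :
    ∃ A B : ℕ, A ≤ B ∧ B ≤ finrank ℂ V ∧
      ((p : ℂ) - 1) * ρ.character x = (p : ℂ) * A - B := by
  classical
  obtain ⟨E, hE⟩ : ∃ E : Finset ℂ, E = eigSet (ρ x) := ⟨_, rfl⟩
  obtain ⟨m, hm⟩ : ∃ m : ℂ → ℕ, ∀ μ, m μ = eigMult ρ x μ := ⟨fun μ => eigMult ρ x μ, fun _ => rfl⟩
  have hroot : ∀ μ ∈ E, μ ^ (p ^ (k + 1)) = 1 := by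
    intro μ hμ
    rw [hE] at hμ
    obtain ⟨c, hc⟩ := orderOf_dvd_of_pow_eq_one hx
    rw [hc, pow_mul, eig_pow ρ x hμ, one_pow]
  have hchar : ∀ j : ℕ, ρ.character (x ^ j) = ∑ μ ∈ E, μ ^ j * (m μ : ℂ) := by
    intro j
    rw [char_pow_eq_sum, hE]
    exact Finset.sum_congr rfl (fun μ _ => by rw [hm])
  have hsumm : ∑ μ ∈ E, m μ = finrank ℂ V := by
    rw [hE, ← sum_eigMult ρ x]
    exact Finset.sum_congr rfl (fun μ _ => by rw [hm])
  refine ⟨∑ μ ∈ E.filter (fun μ => μ = 1), m μ, ∑ μ ∈ E.filter (fun μ => μ ^ p = 1), m μ,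
    ?_, ?_, ?_⟩
  · apply Finset.sum_le_sum_of_subset
    intro μ hμ
    rw [Finset.mem_filter] at hμ ⊢
    exact ⟨hμ.1, by rw [hμ.2, one_pow]⟩
  · rw [← hsumm]
    exact Finset.sum_le_sum_of_subset (Finset.filter_subset _ _)
  · -- the two sums
    have hq : p ^ (k + 1) = p * p ^ k := pow_succ' p k
    have hS1 : ∑ j ∈ Finset.range (p ^ (k + 1)), ρ.character (x ^ j)
        = (p ^ (k + 1) : ℕ) * ((∑ μ ∈ E.filter (fun μ => μ = 1), m μ : ℕ) : ℂ) := by
      simp only [hchar]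
      rw [Finset.sum_comm]
      have e1 : ∀ μ ∈ E, ∑ j ∈ Finset.range (p ^ (k + 1)), μ ^ j * (m μ : ℂ)
          = if μ = 1 then ((p ^ (k + 1) : ℕ) : ℂ) * (m μ : ℂ) else 0 := by
        intro μ hμ
        rw [← Finset.sum_mul, geom_sum_root μ _ (hroot μ hμ)]
        split_ifs <;> simp
      rw [Finset.sum_congr rfl e1, ← Finset.sum_filter, Nat.cast_sum, Finset.mul_sum]
    have hS2 : ∑ i ∈ Finset.range (p ^ k), ρ.character (x ^ (p * i))
        = (p ^ k : ℕ) * ((∑ μ ∈ E.filter (fun μ => μ ^ p = 1), m μ : ℕ) : ℂ) := by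
      simp only [hchar]
      rw [Finset.sum_comm]
      have e1 : ∀ μ ∈ E, ∑ i ∈ Finset.range (p ^ k), μ ^ (p * i) * (m μ : ℂ)
          = if μ ^ p = 1 then ((p ^ k : ℕ) : ℂ) * (m μ : ℂ) else 0 := by
        intro μ hμ
        have hr' : (μ ^ p) ^ (p ^ k) = 1 := by
          rw [← pow_mul, ← hq]
          exact hroot μ hμ
        have e2 : ∀ i ∈ Finset.range (p ^ k), μ ^ (p * i) * (m μ : ℂ)
            = (μ ^ p) ^ i * (m μ : ℂ) := by
          intro i _
          rw [pow_mul]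
        rw [Finset.sum_congr rfl e2, ← Finset.sum_mul, geom_sum_root (μ ^ p) _ hr']
        split_ifs <;> simp
      rw [Finset.sum_congr rfl e1, ← Finset.sum_filter, Nat.cast_sum, Finset.mul_sum]
    have hsplit : ∑ j ∈ Finset.range (p ^ (k + 1)), ρ.character (x ^ j)
        = ∑ i ∈ Finset.range (p ^ k), ρ.character (x ^ (p * i))
          + (p ^ k : ℕ) * (((p : ℂ) - 1) * ρ.character x) := by
      rw [hq, sum_range_mul_split]
      have e3 : ∀ i ∈ Finset.range (p ^ k),
          ∑ s ∈ Finset.range p, ρ.character (x ^ (p * i + s))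
            = ρ.character (x ^ (p * i)) + ((p : ℂ) - 1) * ρ.character x := by
        intro i _
        obtain ⟨p', hp'⟩ : ∃ p' : ℕ, p = p' + 1 := ⟨p - 1, by have := hp.pos; omega⟩
        have e4 : ∑ s ∈ Finset.range p, ρ.character (x ^ (p * i + s))
            = ∑ s ∈ Finset.range p', ρ.character (x ^ (p * i + (s + 1)))
              + ρ.character (x ^ (p * i + 0)) := by
          conv_lhs => rw [hp']
          rw [Finset.sum_range_succ']
          simp only [hp']
        rw [e4]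
        have e5 : ∀ s ∈ Finset.range p', ρ.character (x ^ (p * i + (s + 1)))
            = ρ.character x := by
          intro s hs
          apply hinv
          rw [Finset.mem_range] at hs
          intro hdvd
          have h6 : p ∣ s + 1 := (Nat.dvd_add_right (Dvd.intro _ rfl)).mp hdvd
          have h7 := Nat.le_of_dvd (Nat.succ_pos s) h6
          omega
        rw [Finset.sum_congr rfl e5, Finset.sum_const, Finset.card_range, add_zero,
          nsmul_eq_mul, hp']
        push_cast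
        ring
      rw [Finset.sum_congr rfl e3, Finset.sum_add_distrib, Finset.sum_const, Finset.card_range,
        nsmul_eq_mul]
    rw [hS1, hS2] at hsplit
    have hpk : ((p ^ k : ℕ) : ℂ) ≠ 0 := by
      exact_mod_cast (pow_pos hp.pos k).ne'
    have h8 : ((p ^ k : ℕ) : ℂ) * (((p : ℂ) - 1) * ρ.character x)
        = ((p ^ k : ℕ) : ℂ) * ((p : ℂ) * ((∑ μ ∈ E.filter (fun μ => μ = 1), m μ : ℕ) : ℂ)
          - ((∑ μ ∈ E.filter (fun μ => μ ^ p = 1), m μ : ℕ) : ℂ)) := by
      have e9 : ((p ^ (k + 1) : ℕ) : ℂ) = (p : ℂ) * ((p ^ k : ℕ) : ℂ) := by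
        rw [hq]
        push_cast
        ring
      rw [e9] at hsplit
      linear_combination -hsplit
    exact mul_left_cancel₀ hpk h8

theorem char_p_element_value (ρ : Representation ℂ G V) (p : ℕ) (hp : p.Prime) (x : G) (k : ℕ)
    (hx : x ^ (p ^ k) = 1)
    (hinv : ∀ j : ℕ, ¬ p ∣ j → ρ.character (x ^ j) = ρ.character x) :
    ∃ c : ℕ, ρ.character x = (finrank ℂ V : ℂ) - (p : ℂ) * c ∧ (p - 1) * c ≤ finrank ℂ V := by
  classical
  cases k with
  | zero =>
    have hx1 : x = 1 := by simpa using hx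
    refine ⟨0, ?_, by simp⟩
    rw [hx1, Representation.char_one]
    simp
  | succ k =>
    obtain ⟨A, B, hAB, hBn, hv⟩ := char_p_element_AB ρ p hp x k hx hinv
    obtain ⟨n, hn⟩ : ∃ n : ℕ, n = finrank ℂ V := ⟨_, rfl⟩
    rw [← hn] at hBn ⊢
    have hp2 := hp.two_le
    have hd : ((p : ℤ) - 1) ≠ 0 := by omega
    obtain ⟨z, hz⟩ := int_of_isIntegral_of_mul (char_isIntegral ρ x) ((p : ℤ) * A - B)
      ((p : ℤ) - 1) hd (by push_cast; exact hv)
    have hrel : ((p : ℤ) - 1) * z = (p : ℤ) * A - B := by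
      have h0 : ((((p : ℤ) - 1) * z : ℤ) : ℂ) = (((p : ℤ) * A - B : ℤ) : ℂ) := by
        push_cast
        rw [← hz]
        exact hv
      exact_mod_cast h0
    have hcong : (p : ℤ) ∣ (n : ℤ) - z := by
      obtain ⟨E, hE⟩ : ∃ E : Finset ℂ, E = eigSet (ρ x) := ⟨_, rfl⟩
      obtain ⟨m, hm⟩ : ∃ m : ℂ → ℕ, ∀ μ, m μ = eigMult ρ x μ :=
        ⟨fun μ => eigMult ρ x μ, fun _ => rfl⟩
      have hroot : ∀ μ ∈ E, μ ^ (p ^ (k + 1)) = 1 := by
        intro μ hμ
        rw [hE] at hμ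
        obtain ⟨c, hc⟩ := orderOf_dvd_of_pow_eq_one hx
        rw [hc, pow_mul, eig_pow ρ x hμ, one_pow]
      have hsumm : ∑ μ ∈ E, m μ = n := by
        rw [hE, hn, ← sum_eigMult ρ x]
        exact Finset.sum_congr rfl (fun μ _ => by rw [hm])
      have hchar : ρ.character x = ∑ μ ∈ E, μ * (m μ : ℂ) := by
        rw [char_eq_sum, hE]
        exact Finset.sum_congr rfl (fun μ _ => by rw [hm])
      have hint : ∀ μ ∈ E, IsIntegral ℤ (μ * (m μ : ℂ)) := by
        intro μ hμ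
        apply IsIntegral.mul
        · apply IsIntegral.of_pow (pow_pos hp.pos (k + 1))
          rw [hroot μ hμ]
          exact isIntegral_one
        · exact isIntegral_algebraMap (R := ℤ) (A := ℂ) (x := (m μ : ℤ)) |> fun h => by
            simpa using h
      let a : {μ // μ ∈ E} → integralClosure ℤ ℂ :=
        fun μ => ⟨μ.1 * (m μ.1 : ℂ), hint μ.1 μ.2⟩
      obtain ⟨r, hr⟩ := sum_pow_prime_pow_eq (R := integralClosure ℤ ℂ) p hp (k + 1)
        Finset.univ a
      have hr' := congrArg (fun t : integralClosure ℤ ℂ => (t : ℂ)) hr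
      simp only [Subalgebra.coe_pow, Subalgebra.coe_add, Subalgebra.coe_mul,
        AddSubmonoidClass.coe_finsetSum, SubringClass.coe_natCast] at hr'
      have e1 : ∑ μ : {μ // μ ∈ E}, ((a μ : integralClosure ℤ ℂ) : ℂ) = (z : ℂ) := by
        rw [← hz, hchar]
        exact Finset.sum_coe_sort E (fun μ => μ * (m μ : ℂ))
      have e2 : ∑ μ : {μ // μ ∈ E}, ((a μ : integralClosure ℤ ℂ) : ℂ) ^ p ^ (k + 1)
          = ((∑ μ ∈ E, (m μ : ℤ) ^ p ^ (k + 1) : ℤ) : ℂ) := by
        rw [Finset.sum_coe_sort E (fun μ => (μ * (m μ : ℂ)) ^ p ^ (k + 1))]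
        push_cast
        apply Finset.sum_congr rfl
        intro μ hμ
        rw [mul_pow, hroot μ hμ, one_mul]
      rw [e1, e2] at hr'
      have hrint : IsIntegral ℤ ((r : integralClosure ℤ ℂ) : ℂ) := r.2
      have hp0 : (p : ℤ) ≠ 0 := by exact_mod_cast hp.ne_zero
      obtain ⟨w, hw⟩ := int_of_isIntegral_of_mul hrint
        (z ^ p ^ (k + 1) - ∑ μ ∈ E, (m μ : ℤ) ^ p ^ (k + 1)) (p : ℤ) hp0 (by
          push_cast
          push_cast at hr'
          linear_combination -hr')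
      rw [hw] at hr'
      have h3 : z ^ p ^ (k + 1) = ∑ μ ∈ E, (m μ : ℤ) ^ p ^ (k + 1) + p * w := by
        exact_mod_cast hr'
      have : Fact p.Prime := ⟨hp⟩
      have h4 := congrArg (fun t : ℤ => (t : ZMod p)) h3
      simp only [Int.cast_pow, Int.cast_add, Int.cast_sum, Int.cast_mul, Int.cast_natCast,
        ZMod.natCast_self, zero_mul, add_zero, ZMod.pow_card_pow] at h4
      have h5 : ((z : ℤ) : ZMod p) = ((n : ℤ) : ZMod p) := by
        rw [h4, ← hsumm]
        push_cast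
        rfl
      exact (ZMod.intCast_eq_intCast_iff_dvd_sub z n p).mp h5
    obtain ⟨c', hc'⟩ := hcong
    have hA0 : (0 : ℤ) ≤ A := Int.natCast_nonneg A
    have hAB' : (A : ℤ) ≤ B := by exact_mod_cast hAB
    have hBn' : (B : ℤ) ≤ n := by exact_mod_cast hBn
    have hp2' : (2 : ℤ) ≤ p := by exact_mod_cast hp2
    have hzn : z ≤ n := by
      have h1 : ((p : ℤ) - 1) * z ≤ ((p : ℤ) - 1) * n := by
        rw [hrel]
        nlinarith
      exact le_of_mul_le_mul_left h1 (by omega)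
    have hc'0 : 0 ≤ c' := by
      by_contra hneg
      push Not at hneg
      have : (p : ℤ) * c' < 0 := by nlinarith
      omega
    have hcast : (c'.toNat : ℤ) = c' := Int.toNat_of_nonneg hc'0
    refine ⟨c'.toNat, ?_, ?_⟩
    · rw [hz]
      have h2 : (z : ℤ) = n - p * c'.toNat := by
        rw [hcast]
        omega
      rw [h2]
      push_cast
      ring
    · have h3 : ((p : ℤ) - 1) * c' ≤ n := by
        have h4 : (p : ℤ) * (((p : ℤ) - 1) * c') ≤ (p : ℤ) * n := by
          have e : (p : ℤ) * (((p : ℤ) - 1) * c') = ((p : ℤ) - 1) * (n - z) := by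
            rw [hc']
            ring
          rw [e]
          nlinarith
        exact le_of_mul_le_mul_left h4 (by omega)
      have h5 : (((p - 1) * c'.toNat : ℕ) : ℤ) ≤ (n : ℤ) := by
        rw [Nat.cast_mul, Nat.cast_sub hp.pos, hcast]
        exact_mod_cast h3
      exact_mod_cast h5

end Cfsg.Agent.Lib.Helper8
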