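import Mathlib
import Cfsg.Prelude.Def_Characters
import Cfsg.Agent.Lib.Helper8.Schur1
import Cfsg.Agent.Lib.Helper8.Schur2

/-!
# Schur's bound for the Sylow `p`-subgroup of a group with a faithful `p`-rational character
-/

set_option autoImplicit false

open Cfsg.Agent.Lib.Helper2
open Module

namespace Cfsg.Agent.Lib.Helper8

theorem blichfeldt_aux {P : Type*} [Group P] [Fintype P] {V : Type} [AddCommGroup V]
    [Module ℂ V] [FiniteDimensional ℂ V] (ρ : Representation ℂ P V) (L : List ℤ) :
    ∀ (W : Type) [AddCommGroup W] [Module ℂ W] [FiniteDimensional ℂ W]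
      (σ : Representation ℂ P W),
      ∃ z : ℤ, ∑ x : P, (L.map (fun a : ℤ => ρ.character x - (a : ℂ))).prod * σ.character x
        = z * (Nat.card P : ℂ) := by
  induction L with
  | nil =>
    intro W _ _ _ σ
    have hcard : (Nat.card P : ℂ) ≠ 0 := by exact_mod_cast (Nat.card_pos (α := P)).ne'
    have : Invertible ((Nat.card P : ℕ) : ℂ) := invertibleOfNonzero hcard
    have h := Representation.card_inv_mul_sum_char_eq_finrank σ
    refine ⟨(finrank ℂ (Representation.invariants σ) : ℤ), ?_⟩
    simp only [List.map_nil, List.prod_nil, one_mul]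
    push_cast
    rw [← h]
    field_simp
  | cons a L ih =>
    intro W _ _ _ σ
    obtain ⟨z₁, hz₁⟩ := ih (TensorProduct ℂ V W) (Representation.tprod ρ σ)
    obtain ⟨z₂, hz₂⟩ := ih W σ
    refine ⟨z₁ - a * z₂, ?_⟩
    have e : ∀ x : P,
        ((a :: L).map (fun a : ℤ => ρ.character x - (a : ℂ))).prod * σ.character x
        = (L.map (fun a : ℤ => ρ.character x - (a : ℂ))).prod
            * (Representation.tprod ρ σ).character x
          - a * ((L.map (fun a : ℤ => ρ.character x - (a : ℂ))).prod * σ.character x) := by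
      intro x
      rw [Representation.char_tensor, Pi.mul_apply, List.map_cons, List.prod_cons]
      ring
    rw [Finset.sum_congr rfl (fun x _ => e x), Finset.sum_sub_distrib, ← Finset.mul_sum, hz₁,
      hz₂]
    push_cast
    ring

theorem schur_bound {G : Type*} [Group G] [Finite G] (p : ℕ) (hp : p.Prime) (n : ℕ)
    (ρ : Representation ℂ G (Fin n → ℂ))
    (hfaith : ∀ g : G, ρ.character g = ρ.character 1 → g = 1)
    (hrat : ∃ r : ℕ, 0 < r ∧ ¬ p ∣ r ∧ ∀ g : G, ρ.character g ∈
      IntermediateField.adjoin ℚ ({Complex.exp (2 * Real.pi * Complex.I / r)} : Set ℂ)) :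
    (Nat.card G).factorization p ≤ ∑ i ∈ Finset.range (n + 1), n / ((p - 1) * p ^ i) := by
  classical
  have : Fact p.Prime := ⟨hp⟩
  obtain ⟨r, hr, hpr, hrat⟩ := hrat
  obtain ⟨P⟩ : Nonempty (Sylow p G) := inferInstance
  have : Fintype ↥(P : Subgroup G) := Fintype.ofFinite _
  obtain ⟨m, hm⟩ : ∃ m : ℕ, m = n / (p - 1) := ⟨_, rfl⟩
  have hp1 : 0 < p - 1 := by have := hp.two_le; omega
  have hval : ∀ x : ↥(P : Subgroup G), ∃ c : ℕ,
      ρ.character (x : G) = (n : ℂ) - (p : ℂ) * c ∧ c ≤ m ∧ (c = 0 → x = 1) := by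
    intro x
    obtain ⟨k, hk⟩ := P.isPGroup' x
    have hxk : (x : G) ^ p ^ k = 1 := by
      have := congrArg Subtype.val hk
      simpa using this
    obtain ⟨c, hc1, hc2⟩ := char_p_element_value ρ p hp (x : G) k hxk
      (fun j hj => char_pow_of_rational ρ p hp r hr hpr hrat (x : G) k hxk j hj)
    rw [Module.finrank_fin_fun] at hc1 hc2
    refine ⟨c, hc1, ?_, ?_⟩
    · rw [hm, Nat.le_div_iff_mul_le hp1, mul_comm]
      exact hc2
    · intro hc0
      have h1 : ρ.character (x : G) = ρ.character 1 := by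
        rw [hc1, hc0, Representation.char_one, Module.finrank_fin_fun]
        simp
      exact Subtype.ext (hfaith _ h1)
  obtain ⟨L, hL⟩ : ∃ L : List ℤ, L = (List.range m).map (fun c : ℕ => (n : ℤ) - p * (c + 1)) :=
    ⟨_, rfl⟩
  obtain ⟨ρP, hρP⟩ : ∃ ρP : Representation ℂ ↥(P : Subgroup G) (Fin n → ℂ),
      ∀ x, ρP.character x = ρ.character (x : G) :=
    ⟨ρ.comp (P : Subgroup G).subtype, fun _ => rfl⟩
  obtain ⟨z, hz⟩ := blichfeldt_aux ρP L ℂ (Representation.trivial ℂ ↥(P : Subgroup G) ℂ)
  have htriv : ∀ x : ↥(P : Subgroup G),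
      (Representation.trivial ℂ ↥(P : Subgroup G) ℂ).character x = 1 := by
    intro x
    simp [Representation.character]
  have hterm : ∀ x : ↥(P : Subgroup G), x ≠ 1 →
      (L.map (fun a : ℤ => ρP.character x - (a : ℂ))).prod = 0 := by
    intro x hx
    obtain ⟨c, hc1, hc2, hc3⟩ := hval x
    apply List.prod_eq_zero
    rw [List.mem_map]
    have hc0 : c ≠ 0 := fun h => hx (hc3 h)
    refine ⟨(n : ℤ) - p * c, ?_, ?_⟩
    · rw [hL, List.mem_map]
      refine ⟨c - 1, List.mem_range.mpr (by omega), ?_⟩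
      have e : ((c - 1 : ℕ) : ℤ) + 1 = c := by omega
      rw [e]
    · rw [hρP, hc1]
      push_cast
      ring
  have hone : (L.map (fun a : ℤ => ρP.character 1 - (a : ℂ))).prod
      = ((p ^ m * m.factorial : ℕ) : ℂ) := by
    have h1 : ρP.character 1 = (n : ℂ) := by
      rw [Representation.char_one, Module.finrank_fin_fun]
    rw [h1, hL, List.map_map]
    have key : ∀ k : ℕ, ((List.range k).map ((fun a : ℤ => (n : ℂ) - (a : ℂ)) ∘
        (fun c : ℕ => (n : ℤ) - p * (c + 1)))).prod = ((p ^ k * k.factorial : ℕ) : ℂ) := by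
      intro k
      induction k with
      | zero => simp
      | succ k ih =>
        rw [List.range_succ, List.map_append, List.prod_append, ih]
        simp only [List.map_cons, List.map_nil, List.prod_cons, List.prod_nil, Function.comp,
          mul_one]
        rw [Nat.factorial_succ, pow_succ]
        push_cast
        ring
    exact key m
  have hsum : ∑ x : ↥(P : Subgroup G), (L.map (fun a : ℤ => ρP.character x - (a : ℂ))).prod
      * (Representation.trivial ℂ ↥(P : Subgroup G) ℂ).character x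
      = ((p ^ m * m.factorial : ℕ) : ℂ) := by
    rw [Finset.sum_eq_single (1 : ↥(P : Subgroup G))]
    · rw [htriv, mul_one, hone]
    · intro x _ hx
      rw [hterm x hx, zero_mul]
    · intro h
      exact absurd (Finset.mem_univ _) h
  rw [hsum] at hz
  have hdvd : Nat.card ↥(P : Subgroup G) ∣ p ^ m * m.factorial := by
    have h1 : ((p ^ m * m.factorial : ℕ) : ℤ) = z * (Nat.card ↥(P : Subgroup G) : ℤ) := by
      exact_mod_cast hz
    exact Int.natCast_dvd_natCast.mp ⟨z, by rw [h1]; ring⟩
  rw [Sylow.card_eq_multiplicity] at hdvd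
  have hne : p ^ m * m.factorial ≠ 0 :=
    mul_ne_zero (pow_ne_zero _ hp.ne_zero) (Nat.factorial_ne_zero m)
  have hle := (padicValNat_dvd_iff_le hne).mp hdvd
  have hmn : m ≤ n := by
    rw [hm]
    exact Nat.div_le_self n (p - 1)
  have hlog : Nat.log p m < n + 1 := lt_of_le_of_lt (Nat.log_le_self p m) (by omega)
  rw [padicValNat.mul (pow_ne_zero _ hp.ne_zero) (Nat.factorial_ne_zero m),
    padicValNat.prime_pow, padicValNat_factorial hlog] at hle
  have hgoal : ∑ i ∈ Finset.range (n + 1), n / ((p - 1) * p ^ i)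
      = m + ∑ i ∈ Finset.Ico 1 (n + 1), m / p ^ i := by
    rw [Finset.range_eq_Ico, Finset.sum_eq_sum_Ico_succ_bot (Nat.succ_pos n)]
    simp only [pow_zero, mul_one]
    rw [← hm]
    congr 1
    apply Finset.sum_congr rfl
    intro i _
    rw [hm, Nat.div_div_eq_div_mul]
  rw [hgoal]
  exact hle

end Cfsg.Agent.Lib.Helper8
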