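import Mathlib
import Cfsg.Agent.S0244
import Cfsg.Agent.S0261

set_option autoImplicit false

namespace Cfsg.Agent.Lib.Helper8.Sp2Sq

open Matrix
open scoped commutatorElement

/-- homomorphisms map the commutator subgroup into the commutator subgroup -/
theorem map_mem_commutator {G H : Type*} [Group G] [Group H] (f : G →* H) {x : G}
    (hx : x ∈ commutator G) : f x ∈ commutator H := by
  rw [commutator_def] at hx ⊢
  have h := Subgroup.mem_map_of_mem f hx
  rw [Subgroup.map_commutator] at h
  exact Subgroup.commutator_mono le_top le_top h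

theorem quat_a_two_mul_mem {n : ℕ} (i : ZMod (2 * n)) :
    QuaternionGroup.a (2 * i) ∈ commutator (QuaternionGroup n) := by
  have h : ⁅(QuaternionGroup.a i : QuaternionGroup n), QuaternionGroup.xa 0⁆ =
      QuaternionGroup.a (2 * i) := by
    rw [commutatorElement_def, mul_inv_eq_iff_eq_mul, mul_inv_eq_iff_eq_mul]
    simp only [QuaternionGroup.a_mul_xa, QuaternionGroup.xa_mul_a]
    congr 1
    ring
  rw [← h, commutator_def]
  exact Subgroup.commutator_mem_commutator (Subgroup.mem_top _) (Subgroup.mem_top _)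

/-- in a generalized quaternion group of order `4n`, `n` even, every square is in the
commutator subgroup -/
theorem quat_sq_mem {n : ℕ} (m : ℕ) (hn : n = 2 * m) (x : QuaternionGroup n) :
    x ^ 2 ∈ commutator (QuaternionGroup n) := by
  rcases x with i | i
  · have h : (QuaternionGroup.a i : QuaternionGroup n) ^ 2 = QuaternionGroup.a (2 * i) := by
      rw [sq, QuaternionGroup.a_mul_a]
      congr 1
      ring
    rw [h]
    exact quat_a_two_mul_mem i
  · rw [QuaternionGroup.xa_sq]
    have h : ((n : ℕ) : ZMod (2 * n)) = 2 * ((m : ℕ) : ZMod (2 * n)) := by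
      rw [hn]
      push_cast
      ring
    rw [h]
    exact quat_a_two_mul_mem _

section iso

variable (F : Type*) [Field F]

/-- `Sp_2(F)` to `SL_2(F)`, by reindexing -/
def spToSL : ↥(symplecticGroup (Fin 1) F) →* SpecialLinearGroup (Fin 2) F where
  toFun g := ⟨(g.1).submatrix (finSumFinEquiv (m := 1) (n := 1)).symm
      (finSumFinEquiv (m := 1) (n := 1)).symm, by
    rw [Matrix.det_submatrix_equiv_self]
    exact (Cfsg.Agent.S0244.result g.1).mp g.2⟩
  map_one' := Subtype.ext (Matrix.submatrix_one_equiv _)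
  map_mul' a b := Subtype.ext (Matrix.submatrix_mul_equiv a.1 b.1 _ _ _).symm

theorem spToSL_injective : Function.Injective (spToSL F) := by
  intro a b hab
  have h1 : (a.1).submatrix (finSumFinEquiv (m := 1) (n := 1)).symm
      (finSumFinEquiv (m := 1) (n := 1)).symm = (b.1).submatrix
      (finSumFinEquiv (m := 1) (n := 1)).symm (finSumFinEquiv (m := 1) (n := 1)).symm :=
    congrArg Subtype.val hab
  apply Subtype.ext
  ext i j
  have h2 := congrFun (congrFun h1 (finSumFinEquiv i)) (finSumFinEquiv j)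
  simpa using h2

theorem spToSL_surjective : Function.Surjective (spToSL F) := by
  intro N
  have hdet : ((N.1).submatrix (finSumFinEquiv (m := 1) (n := 1))
      (finSumFinEquiv (m := 1) (n := 1))).det = 1 := by
    rw [Matrix.det_submatrix_equiv_self]
    exact N.2
  refine ⟨⟨_, (Cfsg.Agent.S0244.result _).mpr hdet⟩, ?_⟩
  apply Subtype.ext
  ext i j
  show (((N.1).submatrix (finSumFinEquiv (m := 1) (n := 1))
      (finSumFinEquiv (m := 1) (n := 1))).submatrix (finSumFinEquiv (m := 1) (n := 1)).symm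
      (finSumFinEquiv (m := 1) (n := 1)).symm) i j = N.1 i j
  simp

end iso

/-- every square of an element of a Sylow `2`-subgroup of `Sp_2(F)`, `F` finite of odd
order, lies in the commutator subgroup of that Sylow subgroup -/
theorem sp2_sylow_sq_mem_commutator {F : Type*} [Field F] [Fintype F]
    (hF : Odd (Fintype.card F)) (Q : Sylow 2 ↥(Matrix.symplecticGroup (Fin 1) F)) :
    ∀ u : ↥(Q : Subgroup ↥(Matrix.symplecticGroup (Fin 1) F)),
      u ^ 2 ∈ commutator ↥(Q : Subgroup ↥(Matrix.symplecticGroup (Fin 1) F)) := by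
  classical
  intro u
  have : Fact (Nat.Prime 2) := ⟨Nat.prime_two⟩
  obtain ⟨k, hk, ⟨e⟩⟩ := Cfsg.Agent.S0261.result hF (Q.mapSurjective (spToSL_surjective F))
  have hinj : Function.Injective ((spToSL F).subgroupMap
      (Q : Subgroup ↥(Matrix.symplecticGroup (Fin 1) F))) := by
    intro a b hab
    exact Subtype.ext (spToSL_injective F (congrArg Subtype.val hab))
  have hsurj : Function.Surjective ((spToSL F).subgroupMap
      (Q : Subgroup ↥(Matrix.symplecticGroup (Fin 1) F))) :=
    MonoidHom.subgroupMap_surjective _ _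
  obtain ⟨ψ, hψ, hψs⟩ : ∃ ψ : ↥(Q : Subgroup ↥(Matrix.symplecticGroup (Fin 1) F)) →*
      QuaternionGroup (2 ^ k), Function.Injective ψ ∧ Function.Surjective ψ :=
    ⟨e.toMonoidHom.comp ((spToSL F).subgroupMap
      (Q : Subgroup ↥(Matrix.symplecticGroup (Fin 1) F))), e.injective.comp hinj,
      e.surjective.comp hsurj⟩
  have hk2 : 2 ^ k = 2 * 2 ^ (k - 1) := by
    obtain ⟨j, rfl⟩ : ∃ j, k = j + 1 := ⟨k - 1, by omega⟩
    rw [pow_succ, Nat.add_sub_cancel, mul_comm]
  have h1 : (ψ u) ^ 2 ∈ commutator (QuaternionGroup (2 ^ k)) :=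
    quat_sq_mem (2 ^ (k - 1)) hk2 _
  have h2 := map_mem_commutator (MulEquiv.ofBijective ψ ⟨hψ, hψs⟩).symm.toMonoidHom h1
  have h3 : (MulEquiv.ofBijective ψ ⟨hψ, hψs⟩).symm.toMonoidHom ((ψ u) ^ 2) = u ^ 2 := by
    rw [← map_pow]
    exact (MulEquiv.ofBijective ψ ⟨hψ, hψs⟩).symm_apply_apply (u ^ 2)
  rw [h3] at h2
  exact h2

end Cfsg.Agent.Lib.Helper8.Sp2Sq
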