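import Mathlib

set_option autoImplicit false

namespace Cfsg.Agent.Lib.Helper8

/-- rotation argument: the number of vectors of length `p ^ k` with entries in `T` and product
one is congruent modulo `p` to the number of elements `b` of `T` with `b ^ p ^ k = 1` -/
theorem card_prodOne_modEq {G : Type*} [Group G] [Finite G] (T : Set G) (p k : ℕ)
    [hp : Fact p.Prime] :
    Nat.card {v : List.Vector G (p ^ k) // (∀ y ∈ v.toList, y ∈ T) ∧ v.toList.prod = 1}
      ≡ Nat.card {b : G // b ∈ T ∧ b ^ (p ^ k) = 1} [MOD p] := by
  classical
  have : Fintype G := Fintype.ofFinite G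
  have hnpos : 0 < p ^ k := pow_pos hp.out.pos k
  generalize hn : p ^ k = n at hnpos
  let Y := {v : List.Vector G n // (∀ y ∈ v.toList, y ∈ T) ∧ v.toList.prod = 1}
  let rot : ℕ → Y → Y := fun j v =>
    ⟨⟨v.1.toList.rotate j, by rw [List.length_rotate]; exact v.1.2⟩,
      fun y hy => v.2.1 y (List.mem_rotate.mp hy),
      List.prod_rotate_eq_one_of_prod_eq_one v.2.2 j⟩
  have hrot0 : ∀ v, rot 0 v = v := fun v => Subtype.ext (Subtype.ext (List.rotate_zero _))
  have hrotadd : ∀ j j' v, rot j' (rot j v) = rot (j + j') v := fun j j' v =>
    Subtype.ext (Subtype.ext (List.rotate_rotate _ _ _))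
  have hrotn : ∀ v, rot n v = v := fun v => Subtype.ext (Subtype.ext (by
    change v.1.toList.rotate n = v.1.toList
    have h1 : v.1.toList.length = n := v.1.2
    have h2 := List.rotate_length v.1.toList
    rw [h1] at h2
    exact h2))
  let f : Function.End Y := rot 1
  have hfpow : ∀ j v, (f ^ j) v = rot j v := by
    intro j
    induction j with
    | zero => intro v; rw [pow_zero]; exact (hrot0 v).symm
    | succ j ih =>
      intro v
      rw [pow_succ]
      change (f ^ j) (f v) = _
      rw [ih]
      exact (hrotadd 1 j v).trans (by rw [add_comm])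
  have hf : f ^ p ^ k = 1 := by
    funext v
    rw [hn, hfpow]; exact hrotn v
  have key := Equiv.Perm.card_fixedPoints_modEq (f := f) hf
  let Φ : {b : G // b ∈ T ∧ b ^ n = 1} → Function.fixedPoints f := fun b =>
    ⟨⟨⟨List.replicate n b.1, List.length_replicate⟩,
      fun y hy => by
        have : y = b.1 := List.eq_of_mem_replicate hy
        rw [this]; exact b.2.1,
      by
        change (List.replicate n b.1).prod = 1
        rw [List.prod_replicate]; exact b.2.2⟩,
      Subtype.ext (Subtype.ext (List.rotate_replicate b.1 n 1))⟩
  have hΦ : Function.Bijective Φ := by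
    constructor
    · intro b b' hbb
      have h1 : List.replicate n b.1 = List.replicate n b'.1 :=
        congrArg (fun v : Function.fixedPoints f => v.1.1.1) hbb
      apply Subtype.ext
      exact (List.replicate_right_inj hnpos.ne').mp h1
    · intro v
      have hv : rot 1 v.1 = v.1 := v.2
      have h1 : v.1.1.toList.rotate 1 = v.1.1.toList :=
        congrArg (fun w : Y => w.1.1) hv
      obtain ⟨a, ha⟩ := List.rotate_one_eq_self_iff_eq_replicate.mp h1
      have hlen : v.1.1.toList.length = n := v.1.1.2
      rw [hlen] at ha
      have haT : a ∈ T := by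
        apply v.1.2.1
        rw [ha]
        exact List.mem_replicate.mpr ⟨hnpos.ne', rfl⟩
      have hapow : a ^ n = 1 := by
        have := v.1.2.2
        rw [ha, List.prod_replicate] at this
        exact this
      refine ⟨⟨a, haT, hapow⟩, ?_⟩
      apply Subtype.ext
      apply Subtype.ext
      apply Subtype.ext
      exact ha.symm
  have hcard := Fintype.card_of_bijective hΦ
  subst hn
  rw [Nat.card_eq_fintype_card, Nat.card_eq_fintype_card]
  rw [hcard]
  convert key using 2

end Cfsg.Agent.Lib.Helper8
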