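import Mathlib
import Cfsg.Prelude.Def_Blocks
import Cfsg.Agent.Lib.Helper25.BlockOrth
import Cfsg.Agent.Lib.Helper25.WeakOrth
import Cfsg.Agent.Lib.Helper8.BlockNormal
import Cfsg.Agent.Lib.Helper8.CosetInt

set_option autoImplicit false

/-!
A set of irreducible characters satisfying weak block orthogonality (for the prime `p`) is a
union of `p`-blocks with respect to every maximal ideal containing `p`.  Consequently the
partition into `p`-blocks does not depend on the choice of the maximal ideal.
-/

namespace Cfsg.Agent.Lib.Helper8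

open Cfsg Cfsg.Agent.Lib.Helper2 Cfsg.Agent.Lib.Helper25

open scoped ComplexConjugate

theorem blockClosed_of_weakOrth {G : Type*} [Group G] [Finite G] {p : ℕ} [Fact p.Prime]
    {M : Ideal AlgInt} (hM : IsPModular p M) (A : Set (IrrCharacter G))
    (hA : ∀ x y : G, ¬ p ∣ orderOf x → p ∣ orderOf y →
      ∑ᶠ χ ∈ A, (χ : G → ℂ) x * conj ((χ : G → ℂ) y) = 0) :
    BlockClosed M A := by
  classical
  have : Fintype G := Fintype.ofFinite G
  have : Fintype (IrrCharacter G) := Fintype.ofFinite _
  have hpr := isPrime_of_isPModular hM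
  have hp : p.Prime := Fact.out
  have hA' : ∀ x y : G, ¬ p ∣ orderOf x → p ∣ orderOf y →
      ∑ χ : IrrCharacter G, (if χ ∈ A then (1 : ℂ) else 0)
        * ((χ : G → ℂ) x * conj ((χ : G → ℂ) y)) = 0 := by
    intro x y hx hy
    have h0 := hA x y hx hy
    rw [finsum_mem_eq_sum_indicator] at h0
    refine (Finset.sum_congr rfl ?_).trans h0
    intro χ _
    rw [Set.indicator_apply]
    split_ifs <;> simp
  have hR : ∀ g, MemLocalRing M (blockCoeff A g) := by
    intro g
    by_cases hg : p ∣ orderOf g
    · have h0 : blockCoeff A g = 0 := by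
        rw [blockCoeff_eq_sum, hA' 1 g (by rw [orderOf_one, Nat.dvd_one]; exact hp.one_lt.ne') hg,
          mul_zero]
      rw [h0]; exact memLocalRing_zero M
    · let P : Sylow p G := default
      have hβ : ∀ χ : IrrCharacter G, ∃ β : ℂ, IsIntegral ℤ β ∧
          ∑ q : (P : Subgroup G), (χ : G → ℂ) (1 * q) = (Fintype.card (P : Subgroup G) : ℂ) * β :=
        fun χ => sum_coset_isIntegral (χ : G → ℂ) (isCharacter_of_isIrrCharacter χ.2) 1
          (P : Subgroup G) (fun q _ => by rw [mul_one, one_mul])
      choose β hβi hβs using hβ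
      have hkey : ∑ χ : IrrCharacter G, (if χ ∈ A then (1 : ℂ) else 0)
            * ((χ : G → ℂ) 1 * conj ((χ : G → ℂ) g))
          = ∑ χ : IrrCharacter G, (if χ ∈ A then (1 : ℂ) else 0)
            * (conj ((χ : G → ℂ) g) * ∑ q : (P : Subgroup G), (χ : G → ℂ) (1 * q)) := by
        have e1 : ∑ χ : IrrCharacter G, (if χ ∈ A then (1 : ℂ) else 0)
            * (conj ((χ : G → ℂ) g) * ∑ q : (P : Subgroup G), (χ : G → ℂ) (1 * q))
            = ∑ q : (P : Subgroup G), ∑ χ : IrrCharacter G, (if χ ∈ A then (1 : ℂ) else 0)
              * (conj ((χ : G → ℂ) g) * (χ : G → ℂ) q) := by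
          rw [Finset.sum_comm]
          apply Finset.sum_congr rfl
          intro χ _
          rw [Finset.mul_sum, Finset.mul_sum]
          apply Finset.sum_congr rfl
          intro q _
          rw [one_mul]
        rw [e1, Finset.sum_eq_single (1 : (P : Subgroup G))]
        · apply Finset.sum_congr rfl
          intro χ _
          rw [Subgroup.coe_one, mul_comm ((χ : G → ℂ) 1)]
        · intro q _ hq
          have hq1 : (q : G) ≠ 1 := fun h => hq (Subtype.ext h)
          have hqp : p ∣ orderOf (q : G) := by
            obtain ⟨k, hk⟩ := (IsPGroup.iff_orderOf.mp P.isPGroup') q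
            rw [Subgroup.orderOf_coe, hk]
            rcases Nat.eq_zero_or_pos k with h0 | h0
            · exfalso
              rw [h0, pow_zero, orderOf_eq_one_iff] at hk
              exact hq hk
            · exact dvd_pow_self p h0.ne'
          have h1 := hA' g q hg hqp
          have h2 := congrArg conj h1
          rw [map_sum, map_zero] at h2
          refine (Finset.sum_congr rfl ?_).trans h2
          intro χ _
          rw [map_mul, map_mul, Complex.conj_conj]
          congr 1
          split_ifs <;> simp
        · intro h; exact absurd (Finset.mem_univ _) h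
      have hcard : (Nat.card G : ℂ) = (Fintype.card (P : Subgroup G) : ℂ)
          * (((P : Subgroup G).index : ℕ) : ℂ) := by
        rw [← Nat.cast_mul, ← Nat.card_eq_fintype_card, Subgroup.card_mul_index]
      have hPne : (Fintype.card (P : Subgroup G) : ℂ) ≠ 0 := by
        exact_mod_cast Fintype.card_ne_zero
      have hidx : ¬ p ∣ (P : Subgroup G).index := P.not_dvd_index
      have hidx0 : (((P : Subgroup G).index : ℕ) : ℂ) ≠ 0 := by
        intro h
        apply hidx
        have : (P : Subgroup G).index = 0 := by exact_mod_cast h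
        rw [this]; exact dvd_zero p
      have hval : blockCoeff A g = (((P : Subgroup G).index : ℕ) : ℂ)⁻¹
          * ∑ χ : IrrCharacter G, (if χ ∈ A then (1 : ℂ) else 0)
            * (conj ((χ : G → ℂ) g) * β χ) := by
        rw [blockCoeff_eq_sum, hkey, hcard]
        have e2 : ∑ χ : IrrCharacter G, (if χ ∈ A then (1 : ℂ) else 0)
            * (conj ((χ : G → ℂ) g) * ∑ q : (P : Subgroup G), (χ : G → ℂ) (1 * q))
            = (Fintype.card (P : Subgroup G) : ℂ) * ∑ χ : IrrCharacter G,
              (if χ ∈ A then (1 : ℂ) else 0) * (conj ((χ : G → ℂ) g) * β χ) := by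
          rw [Finset.mul_sum]
          apply Finset.sum_congr rfl
          intro χ _
          rw [hβs χ]; ring
        rw [e2]
        field_simp
      rw [hval]
      refine MemLocalRing.mul M (memLocalRing_inv_natCast hM hidx) ?_
      refine memLocalRing_sum M _ _ (fun χ _ => ?_)
      by_cases hχ : χ ∈ A
      · rw [if_pos hχ, one_mul]
        refine MemLocalRing.mul M ?_ (memLocalRing_of_isIntegral M (hβi χ))
        rw [irr_conj_eq_inv]
        exact memLocalRing_of_isIntegral M (irr_isIntegral χ g⁻¹)
      · rw [if_neg hχ, zero_mul]; exact memLocalRing_zero M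
  intro χ hχ ψ h
  by_contra hψ
  have h1 := omegaFun_sub_mem hM χ ψ h (blockCoeff A) (blockCoeff_isClassFunction A) hR
  rw [omegaFun_blockCoeff, omegaFun_blockCoeff, if_pos hχ, if_neg hψ, sub_zero] at h1
  exact not_memLocalIdeal_one M h1

/-- the partition into `p`-blocks does not depend on the maximal ideal -/
theorem sameBlock_of_sameBlock {G : Type*} [Group G] [Finite G] {p : ℕ} [Fact p.Prime]
    {M M' : Ideal AlgInt} (hM : IsPModular p M) (hM' : IsPModular p M')
    (χ ψ : IrrCharacter G) (h : SameBlock M (χ : G → ℂ) (ψ : G → ℂ)) :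
    SameBlock M' (χ : G → ℂ) (ψ : G → ℂ) := by
  classical
  have : Fintype G := Fintype.ofFinite G
  have hpr := isPrime_of_isPModular hM
  have hpr' := isPrime_of_isPModular hM'
  have hcl : BlockClosed M (blockOf M' (χ : G → ℂ)) :=
    blockClosed_of_weakOrth hM _ (fun x y hx hy =>
      block_orth_finsum hM' _ (blockClosed_blockOf M' _) x y hx hy)
  exact hcl χ (sameBlock_refl M' _) ψ h

end Cfsg.Agent.Lib.Helper8
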