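import Mathlib
import Cfsg.Agent.Lib.Helper2.CharIntegral

set_option autoImplicit false

namespace Cfsg.Agent.Lib.Helper8.ZC

variable {G Ω : Type*} [Group G] [MulAction G Ω]

/-- orbit-stabilizer for ordered pairs of distinct points -/
theorem pair_stab [Finite G] [Fintype Ω]
    (h2t' : ∀ a b c d : Ω, a ≠ b → c ≠ d → ∃ g : G, g • a = c ∧ g • b = d) (c d : Ω)
    (hcd : c ≠ d) :
    (Fintype.card Ω * Fintype.card Ω - Fintype.card Ω)
        * Nat.card {g : G // g • c = c ∧ g • d = d} = Nat.card G := by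
  classical
  have h1 := Subgroup.card_mul_index (MulAction.stabilizer G ((c, d) : Ω × Ω))
  rw [MulAction.index_stabilizer] at h1
  have ho : MulAction.orbit G ((c, d) : Ω × Ω) = {p : Ω × Ω | p.1 ≠ p.2} := by
    ext p
    rw [MulAction.mem_orbit_iff, Set.mem_setOf_eq]
    constructor
    · rintro ⟨g, rfl⟩ h'
      exact hcd (MulAction.injective g h')
    · intro hp
      obtain ⟨g, h1, h2⟩ := h2t' c d p.1 p.2 hcd hp
      exact ⟨g, Prod.ext h1 h2⟩
  have hcard : ({p : Ω × Ω | p.1 ≠ p.2} : Set (Ω × Ω)).ncard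
      = Fintype.card Ω * Fintype.card Ω - Fintype.card Ω := by
    rw [Set.ncard_eq_toFinset_card', ← Finset.card_univ (α := Ω), ← Finset.offDiag_card]
    congr 1
    ext p
    simp [Finset.mem_offDiag]
  have hs : Nat.card (MulAction.stabilizer G ((c, d) : Ω × Ω))
      = Nat.card {g : G // g • c = c ∧ g • d = d} := by
    apply Nat.card_congr
    apply Equiv.subtypeEquivRight
    intro g
    rw [MulAction.mem_stabilizer_iff]
    constructor
    · intro h'
      exact ⟨congrArg Prod.fst h', congrArg Prod.snd h'⟩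
    · rintro ⟨h1, h2⟩
      exact Prod.ext h1 h2
  rw [ho, hcard, hs] at h1
  rw [mul_comm]; exact h1

/-- orbit-stabilizer for points -/
theorem point_stab [Finite G] [Fintype Ω] (htr : ∀ c d : Ω, ∃ g : G, g • c = d) (c : Ω) :
    Fintype.card Ω * Nat.card {g : G // g • c = c} = Nat.card G := by
  have : MulAction.IsPretransitive G Ω := ⟨htr⟩
  have h1 := Subgroup.card_mul_index (MulAction.stabilizer G c)
  rw [MulAction.index_stabilizer_of_transitive, Nat.card_eq_fintype_card (α := Ω)] at h1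
  have hs : Nat.card (MulAction.stabilizer G c) = Nat.card {g : G // g • c = c} :=
    Nat.card_congr (Equiv.subtypeEquivRight (fun g => MulAction.mem_stabilizer_iff))
  rw [hs] at h1
  rw [mul_comm]; exact h1

open Classical in
/-- the first two moments of the number of fixed points in a doubly transitive group -/
theorem fix_count [Fintype G] [Fintype Ω]
    (h2t' : ∀ a b c d : Ω, a ≠ b → c ≠ d → ∃ g : G, g • a = c ∧ g • b = d)
    (htr : ∀ c d : Ω, ∃ g : G, g • c = d) (hn : 2 ≤ Fintype.card Ω) :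
    (∑ g : G, (Finset.univ.filter (fun c : Ω => g • c = c)).card = Nat.card G) ∧
    (∑ g : G, ((Finset.univ.filter (fun c : Ω => g • c = c)).card
        * (Finset.univ.filter (fun c : Ω => g • c = c)).card
        - (Finset.univ.filter (fun c : Ω => g • c = c)).card) = Nat.card G) := by
  constructor
  · have h := Finset.sum_card_bipartiteAbove_eq_sum_card_bipartiteBelow
      (fun (g : G) (c : Ω) => g • c = c) (s := Finset.univ) (t := Finset.univ)
    have hpos : 0 < Fintype.card Ω := by omega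
    apply Nat.eq_of_mul_eq_mul_left hpos
    have h' : ∑ g : G, (Finset.univ.filter (fun c : Ω => g • c = c)).card
        = ∑ c : Ω, (Finset.univ.filter (fun g : G => g • c = c)).card := h
    rw [h', Finset.mul_sum]
    have h2 : ∀ c ∈ (Finset.univ : Finset Ω),
        Fintype.card Ω * (Finset.univ.filter (fun g : G => g • c = c)).card = Nat.card G := by
      intro c _
      rw [← point_stab htr c, Nat.card_eq_fintype_card, Fintype.card_subtype]
    rw [Finset.sum_congr rfl h2, Finset.sum_const, Finset.card_univ, smul_eq_mul]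
  · have h := Finset.sum_card_bipartiteAbove_eq_sum_card_bipartiteBelow
      (fun (g : G) (p : Ω × Ω) => g • p.1 = p.1 ∧ g • p.2 = p.2) (s := Finset.univ)
      (t := (Finset.univ : Finset Ω).offDiag)
    have h' : ∑ g : G, ((Finset.univ : Finset Ω).offDiag.filter
          (fun p => g • p.1 = p.1 ∧ g • p.2 = p.2)).card
        = ∑ p ∈ (Finset.univ : Finset Ω).offDiag,
          (Finset.univ.filter (fun g : G => g • p.1 = p.1 ∧ g • p.2 = p.2)).card := h
    have hl : ∀ g : G, ((Finset.univ : Finset Ω).offDiag.filter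
          (fun p => g • p.1 = p.1 ∧ g • p.2 = p.2)).card
        = (Finset.univ.filter (fun c : Ω => g • c = c)).card
          * (Finset.univ.filter (fun c : Ω => g • c = c)).card
          - (Finset.univ.filter (fun c : Ω => g • c = c)).card := by
      intro g
      rw [← Finset.offDiag_card]
      congr 1
      ext p
      simp only [Finset.mem_filter, Finset.mem_offDiag, Finset.mem_univ, true_and]
      tauto
    have hr : ∀ p ∈ (Finset.univ : Finset Ω).offDiag,
        (Fintype.card Ω * Fintype.card Ω - Fintype.card Ω)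
          * (Finset.univ.filter (fun g : G => g • p.1 = p.1 ∧ g • p.2 = p.2)).card
          = Nat.card G := by
      intro p hp
      rw [Finset.mem_offDiag] at hp
      rw [← pair_stab h2t' p.1 p.2 hp.2.2, Nat.card_eq_fintype_card, Fintype.card_subtype]
    have hpos : 0 < Fintype.card Ω * Fintype.card Ω - Fintype.card Ω := by
      have : 2 * Fintype.card Ω ≤ Fintype.card Ω * Fintype.card Ω :=
        Nat.mul_le_mul_right _ hn
      omega
    apply Nat.eq_of_mul_eq_mul_left hpos
    rw [← Finset.sum_congr rfl (fun g _ => hl g), h', Finset.mul_sum,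
      Finset.sum_congr rfl hr, Finset.sum_const, Finset.offDiag_card, Finset.card_univ,
      smul_eq_mul]

theorem arith (n e f c N : ℕ) (hn : 4 ≤ n) (he : 2 ≤ e) (hodd : Odd e)
    (hN : (n * n - n) * e = N)
    (hF : (N : ℤ) = ((n : ℤ) - 1) * ((n : ℤ) - 2) + 2 * (f : ℤ))
    (hc : c * f = N) : False := by
  obtain ⟨j, rfl⟩ := hodd
  have hj : 1 ≤ j := by omega
  have hN' : (N : ℤ) = ((n : ℤ) * n - n) * (2 * j + 1) := by
    rw [← hN]; push_cast [Nat.cast_sub (Nat.le_mul_self n)]; ring
  have hn' : (4 : ℤ) ≤ n := by exact_mod_cast hn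
  have hj' : (1 : ℤ) ≤ j := by exact_mod_cast hj
  have hf : (f : ℤ) = ((n : ℤ) - 1) * (n * j + 1) := by linarith [hF, hN']
  have hc' : (c : ℤ) * f = N := by exact_mod_cast hc
  rw [hf, hN'] at hc'
  have h1 : ((n : ℤ) - 1) * ((c : ℤ) * (n * j + 1) - n * (2 * j + 1)) = 0 := by
    linear_combination hc'
  have h2 : (c : ℤ) * (n * j + 1) = n * (2 * j + 1) := by
    rcases mul_eq_zero.mp h1 with h | h
    · linarith
    · linarith
  have h3 : ((n : ℤ) * j + 1) * (2 * j + 1 - j * c) = 2 * j + 1 := by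
    linear_combination (-(j : ℤ)) * h2
  have hpos : (0 : ℤ) < (n : ℤ) * j + 1 := by positivity
  have hw : (1 : ℤ) ≤ 2 * j + 1 - j * c := by
    by_contra hlt
    push_neg at hlt
    have h0 : (2 : ℤ) * j + 1 - j * c ≤ 0 := by linarith
    nlinarith [mul_nonneg hpos.le (neg_nonneg.mpr h0)]
  have h4 := mul_le_mul_of_nonneg_left hw hpos.le
  rw [h3] at h4
  have h5 := mul_le_mul_of_nonneg_right hn' (by linarith : (0 : ℤ) ≤ j)
  linarith

theorem main [Finite G] [Fintype Ω]
    (h2t' : ∀ a b c d : Ω, a ≠ b → c ≠ d → ∃ g : G, g • a = c ∧ g • b = d)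
    (h3 : ∀ g : G, ∀ a b c : Ω, a ≠ b → b ≠ c → a ≠ c → g • a = a → g • b = b → g • c = c →
      g = 1)
    (g0 : G) (hg01 : g0 ≠ 1) (a0 b0 : Ω) (hab0 : a0 ≠ b0) (hg0a : g0 • a0 = a0)
    (hg0b : g0 • b0 = b0) {a b : Ω} (hab : a ≠ b)
    (hodd : Odd (Nat.card ↥(MulAction.stabilizer G a ⊓ MulAction.stabilizer G b : Subgroup G)))
    (hlt : Nat.card ↥(MulAction.stabilizer G a ⊓ MulAction.stabilizer G b : Subgroup G)
      < Fintype.card Ω - 2) :
    ∃ x y : G, (∀ c : Ω, x • c ≠ c) ∧ (∀ c : Ω, y • c ≠ c) ∧ ¬ IsConj x y := by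
  classical
  have := Fintype.ofFinite G
  by_contra hcon
  have hall : ∀ x y : G, (∀ c : Ω, x • c ≠ c) → (∀ c : Ω, y • c ≠ c) → IsConj x y := by
    intro x y hx hy
    by_contra h
    exact hcon ⟨x, y, hx, hy, h⟩
  have hE : Nat.card ↥(MulAction.stabilizer G a ⊓ MulAction.stabilizer G b : Subgroup G)
      = Nat.card {g : G // g • a = a ∧ g • b = b} :=
    Nat.card_congr (Equiv.subtypeEquivRight (fun g => by
      rw [Subgroup.mem_inf, MulAction.mem_stabilizer_iff, MulAction.mem_stabilizer_iff]))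
  rw [hE] at hodd hlt
  have hA := pair_stab h2t' a b hab
  have hA0 := pair_stab h2t' a0 b0 hab0
  have he1 : 1 ≤ Nat.card {g : G // g • a = a ∧ g • b = b} := by
    obtain ⟨j, hj⟩ := hodd; omega
  have hn4 : 4 ≤ Fintype.card Ω := by omega
  have hpos : 0 < Fintype.card Ω * Fintype.card Ω - Fintype.card Ω := by
    have : 2 * Fintype.card Ω ≤ Fintype.card Ω * Fintype.card Ω :=
      Nat.mul_le_mul_right _ (by omega)
    omega
  have hm0 : 2 ≤ Nat.card {g : G // g • a0 = a0 ∧ g • b0 = b0} := by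
    have : Nontrivial {g : G // g • a0 = a0 ∧ g • b0 = b0} :=
      ⟨⟨⟨1, by simp⟩, ⟨g0, hg0a, hg0b⟩, fun h => hg01 (congrArg Subtype.val h).symm⟩⟩
    exact Finite.one_lt_card_iff_nontrivial.mpr this
  have he2 : 2 ≤ Nat.card {g : G // g • a = a ∧ g • b = b} := by
    have : Nat.card {g : G // g • a = a ∧ g • b = b}
        = Nat.card {g : G // g • a0 = a0 ∧ g • b0 = b0} :=
      Nat.eq_of_mul_eq_mul_left hpos (hA.trans hA0.symm)
    omega
  have htr : ∀ c d : Ω, ∃ g : G, g • c = d := by
    intro c d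
    obtain ⟨c', hc'⟩ := Fintype.exists_ne_of_one_lt_card (by omega : 1 < Fintype.card Ω) c
    obtain ⟨d', hd'⟩ := Fintype.exists_ne_of_one_lt_card (by omega : 1 < Fintype.card Ω) d
    obtain ⟨g, h1, -⟩ := h2t' c c' d d' (Ne.symm hc') (Ne.symm hd')
    exact ⟨g, h1⟩
  obtain ⟨hS1, hS2⟩ := fix_count h2t' htr (by omega)
  obtain ⟨k, hk⟩ : ∃ k : G → ℕ,
      ∀ g, k g = (Finset.univ.filter (fun c : Ω => g • c = c)).card := ⟨_, fun _ => rfl⟩
  simp only [← hk] at hS1 hS2
  have hk1 : k 1 = Fintype.card Ω := by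
    rw [hk]; simp
  have hk2 : ∀ g : G, g ≠ 1 → k g ≤ 2 := by
    intro g hg
    by_contra hlt'
    have h2 : 2 < (Finset.univ.filter (fun c : Ω => g • c = c)).card := by rw [← hk]; omega
    obtain ⟨x, y, z, hx, hy, hz, hxy, hxz, hyz⟩ := Finset.two_lt_card_iff.mp h2
    simp only [Finset.mem_filter, Finset.mem_univ, true_and] at hx hy hz
    exact hg (h3 g x y z hxy hyz hxz hx hy hz)
  have hkmem : ∀ g : G, k g = 0 ↔ ∀ c : Ω, g • c ≠ c := by
    intro g
    rw [hk, Finset.card_eq_zero, Finset.filter_eq_empty_iff]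
    simp
  have hZ : ∑ g : G, (((k g : ℤ) - 1) * ((k g : ℤ) - 2)) = (Nat.card G : ℤ) := by
    have e1 : ∀ g : G, ((k g : ℤ) - 1) * ((k g : ℤ) - 2)
        = ((k g * k g - k g : ℕ) : ℤ) - 2 * (k g : ℤ) + 2 := by
      intro g
      rw [Nat.cast_sub (Nat.le_mul_self (k g))]
      push_cast; ring
    simp only [e1]
    rw [Finset.sum_add_distrib, Finset.sum_sub_distrib, ← Finset.mul_sum, ← Nat.cast_sum,
      ← Nat.cast_sum, hS1, hS2, Finset.sum_const, Finset.card_univ, ← Nat.card_eq_fintype_card]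
    simp
    ring
  have e2 : ∀ g : G, ((k g : ℤ) - 1) * ((k g : ℤ) - 2)
      = (if g = 1 then ((Fintype.card Ω : ℤ) - 1) * ((Fintype.card Ω : ℤ) - 2) else 0)
        + (if k g = 0 then 2 else 0) := by
    intro g
    by_cases hg : g = 1
    · subst hg
      rw [if_pos rfl, hk1, if_neg (by omega), add_zero]
    · have hle := hk2 g hg
      rw [if_neg hg, zero_add]
      have h012 : k g = 0 ∨ k g = 1 ∨ k g = 2 := by omega
      rcases h012 with h | h | h <;> rw [h] <;> norm_num
  have hF : (Nat.card G : ℤ) = ((Fintype.card Ω : ℤ) - 1) * ((Fintype.card Ω : ℤ) - 2)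
      + 2 * ((Finset.univ.filter (fun g : G => k g = 0)).card : ℤ) := by
    rw [← hZ, Finset.sum_congr rfl (fun g _ => e2 g), Finset.sum_add_distrib,
      Finset.sum_ite_eq', if_pos (Finset.mem_univ _), ← Finset.sum_filter, Finset.sum_const,
      nsmul_eq_mul]
    ring
  have hFpos : 0 < (Finset.univ.filter (fun g : G => k g = 0)).card := by
    by_contra h0
    have h00 : (Finset.univ.filter (fun g : G => k g = 0)).card = 0 := by omega
    rw [h00, Nat.cast_zero, mul_zero, add_zero] at hF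
    have hN' : (Nat.card G : ℤ) = ((Fintype.card Ω : ℤ) * Fintype.card Ω - Fintype.card Ω)
        * (Nat.card {g : G // g • a = a ∧ g • b = b} : ℤ) := by
      rw [← hA]; push_cast [Nat.cast_sub (Nat.le_mul_self (Fintype.card Ω))]; ring
    have hn' : (4 : ℤ) ≤ Fintype.card Ω := by exact_mod_cast hn4
    have he' : (2 : ℤ) ≤ (Nat.card {g : G // g • a = a ∧ g • b = b} : ℤ) := by
      exact_mod_cast he2
    have hnn : (0 : ℤ) ≤ (Fintype.card Ω : ℤ) * Fintype.card Ω - Fintype.card Ω := by nlinarith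
    have h9 := mul_le_mul_of_nonneg_left he' hnn
    nlinarith [h9, mul_nonneg (by linarith : (0 : ℤ) ≤ (Fintype.card Ω : ℤ))
      (by linarith : (0 : ℤ) ≤ (Fintype.card Ω : ℤ))]
  obtain ⟨x, hx⟩ := Finset.card_pos.mp hFpos
  rw [Finset.mem_filter] at hx
  have hxf := (hkmem x).mp hx.2
  have hFc : Finset.univ.filter (fun g : G => k g = 0)
      = Finset.univ.filter (fun g : G => IsConj x g) := by
    ext g
    simp only [Finset.mem_filter, Finset.mem_univ, true_and]
    constructor
    · intro hg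
      exact hall x g hxf ((hkmem g).mp hg)
    · intro hg
      obtain ⟨h, rfl⟩ := isConj_iff.mp hg
      rw [hkmem]
      intro c hc
      apply hxf (h⁻¹ • c)
      have : h⁻¹ • ((h * x * h⁻¹) • c) = x • h⁻¹ • c := by
        simp [mul_smul]
      rw [← this, hc]
  have hidx : (Finset.univ.filter (fun g : G => k g = 0)).card
      = (Subgroup.centralizer ({x} : Set G)).index := by
    rw [hFc]
    exact Cfsg.Agent.Lib.Helper2.card_isConj_eq_index x
  have hci := Subgroup.card_mul_index (Subgroup.centralizer ({x} : Set G))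
  rw [← hidx] at hci
  exact arith (Fintype.card Ω) _ _ _ (Nat.card G) hn4 he2 hodd hA hF hci

end Cfsg.Agent.Lib.Helper8.ZC
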