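import Mathlib
import Cfsg.Agent.Lib.Helper8.ZassCount

set_option autoImplicit false

namespace Cfsg.Agent.Lib.Helper8.ZC

variable {G Ω : Type*} [Group G] [MulAction G Ω]

open Classical in
/-- the elements swapping two points are at most as many as the two-point stabilizer -/
theorem swap_card_le [Fintype G] (a d : Ω) :
    (Finset.univ.filter (fun g : G => g • a = d ∧ g • d = a)).card
      ≤ (Finset.univ.filter (fun g : G => g • a = a ∧ g • d = d)).card := by
  rcases (Finset.univ.filter (fun g : G => g • a = d ∧ g • d = a)).eq_empty_or_nonempty with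
    h | ⟨g₀, hg₀⟩
  · rw [h]; simp
  · rw [Finset.mem_filter] at hg₀
    apply Finset.card_le_card_of_injOn (fun g => g₀⁻¹ * g)
    · intro g hg
      simp only [Finset.mem_coe, Finset.mem_filter, Finset.mem_univ, true_and] at hg ⊢
      refine ⟨?_, ?_⟩
      · rw [mul_smul, hg.1, inv_smul_eq_iff]; exact hg₀.2.1.symm
      · rw [mul_smul, hg.2, inv_smul_eq_iff]; exact hg₀.2.2.symm
    · intro g _ g' _ h
      exact mul_left_cancel h

theorem inv_iff (t : G) : orderOf t = 2 ↔ t * t = 1 ∧ t ≠ 1 := by
  constructor
  · intro h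
    refine ⟨?_, ?_⟩
    · rw [← pow_two, ← h]; exact pow_orderOf_eq_one t
    · intro h1
      rw [h1, orderOf_one] at h
      omega
  · rintro ⟨h1, h2⟩
    exact orderOf_eq_prime (by rw [pow_two]; exact h1) h2

open Classical in
theorem inv_main [Finite G] [Fintype Ω]
    (h2t' : ∀ a b c d : Ω, a ≠ b → c ≠ d → ∃ g : G, g • a = c ∧ g • b = d)
    (h3 : ∀ g : G, ∀ a b c : Ω, a ≠ b → b ≠ c → a ≠ c → g • a = a → g • b = b → g • c = c →
      g = 1)
    {a b : Ω} (hab : a ≠ b) (e : ℕ)
    (he : Nat.card ↥(MulAction.stabilizer G a ⊓ MulAction.stabilizer G b : Subgroup G) = e)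
    (hodd : Odd e)
    (H : Subgroup G) (hHa : H ≤ MulAction.stabilizer G a)
    (hHfix : ∀ u ∈ H, u ≠ 1 → ∀ c : Ω, u • c = c → c = a)
    (u : G) (hu : u ∈ H) (hu1 : u ≠ 1) (x y : G) (hx : orderOf x = 2) (hy : orderOf y = 2)
    (hxy : x * y = u) : orderOf u = 2 := by
  have := Fintype.ofFinite G
  obtain ⟨hxx, hx1⟩ := (inv_iff x).mp hx
  obtain ⟨hyy, hy1⟩ := (inv_iff y).mp hy
  have hxinv : x⁻¹ = x := inv_eq_of_mul_eq_one_left hxx
  have hyinv : y⁻¹ = y := inv_eq_of_mul_eq_one_left hyy
  have hua : u • a = a := hHa hu
  have huinv : u⁻¹ = y * x := by rw [← hxy, mul_inv_rev, hxinv, hyinv]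
  have hxa : x • a = a := by
    apply hHfix u hu hu1
    have h1 : u * x = x * u⁻¹ := by rw [huinv, ← hxy]; group
    rw [← mul_smul, h1, mul_smul, inv_smul_eq_iff.mpr hua.symm]
  have hya : y • a = a := by
    have h1 : y = x * u := by rw [← hxy, ← mul_assoc, hxx, one_mul]
    rw [h1, mul_smul, hua, hxa]
  -- cardinalities
  have hn2 : 2 ≤ Fintype.card Ω := Fintype.one_lt_card_iff.mpr ⟨a, b, hab⟩
  have hpos : 0 < Fintype.card Ω * Fintype.card Ω - Fintype.card Ω := by
    have : 2 * Fintype.card Ω ≤ Fintype.card Ω * Fintype.card Ω := Nat.mul_le_mul_right _ hn2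
    omega
  have hE : Nat.card {g : G // g • a = a ∧ g • b = b} = e := by
    rw [← he]
    exact Nat.card_congr (Equiv.subtypeEquivRight (fun g => by
      rw [Subgroup.mem_inf, MulAction.mem_stabilizer_iff, MulAction.mem_stabilizer_iff]))
  have hA := pair_stab h2t' a b hab
  rw [hE] at hA
  have hpair : ∀ c d : Ω, c ≠ d →
      (Finset.univ.filter (fun g : G => g • c = c ∧ g • d = d)).card = e := by
    intro c d hcd
    have h1 := pair_stab h2t' c d hcd
    rw [← hA, Nat.card_eq_fintype_card, Fintype.card_subtype] at h1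
    exact Nat.eq_of_mul_eq_mul_left hpos h1
  have hepos : 0 < e := by
    obtain ⟨j, hj⟩ := hodd; omega
  have htr : ∀ c d : Ω, ∃ g : G, g • c = d := by
    intro c d
    obtain ⟨c', hc'⟩ := Fintype.exists_ne_of_one_lt_card (by omega : 1 < Fintype.card Ω) c
    obtain ⟨d', hd'⟩ := Fintype.exists_ne_of_one_lt_card (by omega : 1 < Fintype.card Ω) d
    obtain ⟨g, h1, -⟩ := h2t' c c' d d' (Ne.symm hc') (Ne.symm hd')
    exact ⟨g, h1⟩
  -- an involution fixes at most one point
  have hfix1 : ∀ t : G, orderOf t = 2 → ∀ c d : Ω, t • c = c → t • d = d → c = d := by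
    intro t ht c d hc hd
    by_contra hne
    have hmem : t ∈ (MulAction.stabilizer G c ⊓ MulAction.stabilizer G d : Subgroup G) := by
      rw [Subgroup.mem_inf, MulAction.mem_stabilizer_iff, MulAction.mem_stabilizer_iff]
      exact ⟨hc, hd⟩
    have hcard : Nat.card ↥(MulAction.stabilizer G c ⊓ MulAction.stabilizer G d : Subgroup G)
        = e := by
      rw [← hpair c d hne, ← Fintype.card_subtype, ← Nat.card_eq_fintype_card]
      exact Nat.card_congr (Equiv.subtypeEquivRight (fun g => by
        rw [Subgroup.mem_inf, MulAction.mem_stabilizer_iff, MulAction.mem_stabilizer_iff]))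
    have hdvd := Subgroup.orderOf_dvd_natCard _ hmem
    rw [ht, hcard] at hdvd
    obtain ⟨j, hj⟩ := hodd
    obtain ⟨m, hm⟩ := hdvd
    omega
  -- the point stabilizer
  have hGa : (Finset.univ.filter (fun g : G => g • a = a)).card = (Fintype.card Ω - 1) * e := by
    have h1 := point_stab htr a
    rw [← hA, Nat.card_eq_fintype_card, Fintype.card_subtype] at h1
    have h2 : Fintype.card Ω * ((Fintype.card Ω - 1) * e)
        = (Fintype.card Ω * Fintype.card Ω - Fintype.card Ω) * e := by
      rw [← mul_assoc, Nat.mul_sub, mul_one]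
    rw [← h2] at h1
    exact Nat.eq_of_mul_eq_mul_left (by omega) h1
  -- involutions fixing a point: at most e
  have hIconj : ∀ c : Ω, (Finset.univ.filter (fun t : G => orderOf t = 2 ∧ t • a = a)).card
      ≤ (Finset.univ.filter (fun t : G => orderOf t = 2 ∧ t • c = c)).card := by
    intro c
    obtain ⟨g, hg⟩ := htr a c
    apply Finset.card_le_card_of_injOn (fun t => g * t * g⁻¹)
    · intro t ht
      simp only [Finset.mem_coe, Finset.mem_filter, Finset.mem_univ, true_and] at ht ⊢
      obtain ⟨ht2, hta⟩ := ht
      obtain ⟨htt, ht1⟩ := (inv_iff t).mp ht2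
      refine ⟨?_, ?_⟩
      · rw [inv_iff]
        refine ⟨?_, ?_⟩
        · calc g * t * g⁻¹ * (g * t * g⁻¹) = g * (t * t) * g⁻¹ := by group
            _ = 1 := by rw [htt]; group
        · intro h
          apply ht1
          have : t = g⁻¹ * (g * t * g⁻¹) * g := by group
          rw [this, h]; group
      · rw [mul_smul, mul_smul, inv_smul_eq_iff.mpr hg.symm, hta, hg]
    · intro t _ t' _ h
      have h' : g * t * g⁻¹ = g * t' * g⁻¹ := h
      have : t = g⁻¹ * (g * t * g⁻¹) * g := by group
      rw [this, h']; group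
  have hI : (Finset.univ.filter (fun t : G => orderOf t = 2 ∧ t • a = a)).card ≤ e := by
    have hdisj : ∀ c ∈ (Finset.univ.erase a : Finset Ω), ∀ c' ∈ (Finset.univ.erase a : Finset Ω),
        c ≠ c' → Disjoint (Finset.univ.filter (fun t : G => orderOf t = 2 ∧ t • c = c))
          (Finset.univ.filter (fun t : G => orderOf t = 2 ∧ t • c' = c')) := by
      intro c _ c' _ hcc
      rw [Finset.disjoint_left]
      intro t ht ht'
      rw [Finset.mem_filter] at ht ht'
      exact hcc (hfix1 t ht.2.1 c c' ht.2.2 ht'.2.2)
    have hsub : (Finset.univ.erase a : Finset Ω).biUnion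
          (fun c => Finset.univ.filter (fun t : G => orderOf t = 2 ∧ t • c = c))
        ⊆ (Finset.univ.erase a : Finset Ω).biUnion
          (fun d => Finset.univ.filter (fun g : G => g • a = d ∧ g • d = a)) := by
      intro t ht
      rw [Finset.mem_biUnion] at ht ⊢
      obtain ⟨c, hc, ht⟩ := ht
      rw [Finset.mem_filter] at ht
      have hca : c ≠ a := Finset.ne_of_mem_erase hc
      have hta : t • a ≠ a := fun h => hca (hfix1 t ht.2.1 c a ht.2.2 h)
      refine ⟨t • a, Finset.mem_erase.mpr ⟨hta, Finset.mem_univ _⟩, ?_⟩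
      rw [Finset.mem_filter]
      refine ⟨Finset.mem_univ _, rfl, ?_⟩
      rw [← mul_smul, ((inv_iff t).mp ht.2.1).1, one_smul]
    have h1 : (Finset.univ.erase a : Finset Ω).card
          * (Finset.univ.filter (fun t : G => orderOf t = 2 ∧ t • a = a)).card
        ≤ ∑ c ∈ (Finset.univ.erase a : Finset Ω),
          (Finset.univ.filter (fun t : G => orderOf t = 2 ∧ t • c = c)).card := by
      rw [← smul_eq_mul, ← Finset.sum_const]
      exact Finset.sum_le_sum (fun c _ => hIconj c)
    have h2 := Finset.card_biUnion hdisj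
    have h3' := Finset.card_le_card hsub
    have h4 : ((Finset.univ.erase a : Finset Ω).biUnion
          (fun d => Finset.univ.filter (fun g : G => g • a = d ∧ g • d = a))).card
        ≤ ∑ d ∈ (Finset.univ.erase a : Finset Ω),
          (Finset.univ.filter (fun g : G => g • a = d ∧ g • d = a)).card :=
      Finset.card_biUnion_le
    have h5 : ∑ d ∈ (Finset.univ.erase a : Finset Ω),
          (Finset.univ.filter (fun g : G => g • a = d ∧ g • d = a)).card
        ≤ ∑ d ∈ (Finset.univ.erase a : Finset Ω), e := by
      apply Finset.sum_le_sum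
      intro d hd
      have hda : a ≠ d := (Finset.ne_of_mem_erase hd).symm
      rw [← hpair a d hda]
      exact swap_card_le a d
    rw [Finset.sum_const, smul_eq_mul] at h5
    have hcardE : (Finset.univ.erase a : Finset Ω).card = Fintype.card Ω - 1 := by
      rw [Finset.card_erase_of_mem (Finset.mem_univ a), Finset.card_univ]
    have h6 : (Finset.univ.erase a : Finset Ω).card
          * (Finset.univ.filter (fun t : G => orderOf t = 2 ∧ t • a = a)).card
        ≤ (Finset.univ.erase a : Finset Ω).card * e := by
      calc _ ≤ _ := h1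
        _ = _ := h2.symm
        _ ≤ _ := h3'
        _ ≤ _ := h4
        _ ≤ _ := h5
    exact Nat.le_of_mul_le_mul_left h6 (by rw [hcardE]; omega)
  -- the elements fixing only a, together with 1: at most n - 1
  have hHa_card : ((Finset.univ.filter (fun g : G => g • a = a)).filter
      (fun g : G => g = 1 ∨ ∀ c : Ω, g • c = c → c = a)).card ≤ Fintype.card Ω - 1 := by
    have hb := Finset.sum_card_bipartiteAbove_eq_sum_card_bipartiteBelow
      (fun (g : G) (c : Ω) => g • c = c) (s := Finset.univ.filter (fun g : G => g • a = a))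
      (t := (Finset.univ.erase a : Finset Ω))
    have hb' : ∑ g ∈ Finset.univ.filter (fun g : G => g • a = a),
          ((Finset.univ.erase a : Finset Ω).filter (fun c => g • c = c)).card
        = ∑ c ∈ (Finset.univ.erase a : Finset Ω),
          ((Finset.univ.filter (fun g : G => g • a = a)).filter (fun g => g • c = c)).card := hb
    have hcardE : (Finset.univ.erase a : Finset Ω).card = Fintype.card Ω - 1 := by
      rw [Finset.card_erase_of_mem (Finset.mem_univ a), Finset.card_univ]
    have hR : ∑ c ∈ (Finset.univ.erase a : Finset Ω),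
          ((Finset.univ.filter (fun g : G => g • a = a)).filter (fun g => g • c = c)).card
        = (Fintype.card Ω - 1) * e := by
      rw [← hcardE, ← smul_eq_mul, ← Finset.sum_const]
      apply Finset.sum_congr rfl
      intro c hc
      rw [Finset.filter_filter]
      exact hpair a c (Finset.ne_of_mem_erase hc).symm
    have hL : ∑ g ∈ Finset.univ.filter (fun g : G => g • a = a),
          ((Finset.univ.erase a : Finset Ω).filter (fun c => g • c = c)).card
        ≤ ∑ g ∈ Finset.univ.filter (fun g : G => g • a = a),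
          ((if g = 1 then (Fintype.card Ω - 1) else 0)
            + (if ¬ (g = 1 ∨ ∀ c : Ω, g • c = c → c = a) then 1 else 0)) := by
      apply Finset.sum_le_sum
      intro g hg
      rw [Finset.mem_filter] at hg
      by_cases hg1 : g = 1
      · rw [if_pos hg1, ← hcardE]
        exact le_add_right (Finset.card_filter_le _ _)
      · rw [if_neg hg1, zero_add]
        by_cases hP : (g = 1 ∨ ∀ c : Ω, g • c = c → c = a)
        · rw [if_neg (not_not.mpr hP)]
          rcases hP with hP | hP
          · exact absurd hP hg1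
          · rw [Nat.le_zero, Finset.card_eq_zero, Finset.filter_eq_empty_iff]
            intro c hc hgc
            exact (Finset.ne_of_mem_erase hc) (hP c hgc)
        · rw [if_pos hP]
          rw [Finset.card_le_one]
          intro c hc c' hc'
          rw [Finset.mem_filter] at hc hc'
          by_contra hne
          exact hg1 (h3 g a c c' (Finset.ne_of_mem_erase hc.1).symm hne
            (Finset.ne_of_mem_erase hc'.1).symm hg.2 hc.2 hc'.2)
    have h1mem : (1 : G) ∈ Finset.univ.filter (fun g : G => g • a = a) :=
      Finset.mem_filter.mpr ⟨Finset.mem_univ _, one_smul G a⟩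
    rw [hb', hR, Finset.sum_add_distrib, Finset.sum_ite_eq', if_pos h1mem,
      ← Finset.card_filter] at hL
    have hsplit := Finset.card_filter_add_card_filter_not
      (s := Finset.univ.filter (fun g : G => g • a = a))
      (fun g : G => g = 1 ∨ ∀ c : Ω, g • c = c → c = a)
    rw [hGa] at hsplit
    have : (Fintype.card Ω - 1) * e ≥ Fintype.card Ω - 1 := Nat.le_mul_of_pos_right _ hepos
    omega
  -- the centralizer of x in the point stabilizer
  have hC : Fintype.card Ω - 1 ≤ ((Finset.univ.filter (fun g : G => g • a = a)).filter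
      (fun g : G => g * x = x * g)).card := by
    have h1 := Finset.card_le_mul_card_image (f := fun g : G => g * x * g⁻¹)
      (Finset.univ.filter (fun g : G => g • a = a))
      ((Finset.univ.filter (fun g : G => g • a = a)).filter (fun g : G => g * x = x * g)).card
      (by
        intro v hv
        rw [Finset.mem_image] at hv
        obtain ⟨g₀, hg₀, hv⟩ := hv
        rw [Finset.mem_filter] at hg₀
        apply Finset.card_le_card_of_injOn (fun g => g₀⁻¹ * g)
        · intro g hg
          simp only [Finset.mem_coe, Finset.mem_filter, Finset.mem_univ, true_and] at hg ⊢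
          refine ⟨?_, ?_⟩
          · rw [mul_smul, hg.1, inv_smul_eq_iff, hg₀.2]
          · have h9 : g * x * g⁻¹ = g₀ * x * g₀⁻¹ := by rw [hg.2, hv]
            calc g₀⁻¹ * g * x = g₀⁻¹ * (g * x * g⁻¹) * g := by group
              _ = g₀⁻¹ * (g₀ * x * g₀⁻¹) * g := by rw [h9]
              _ = x * (g₀⁻¹ * g) := by group
        · intro g _ g' _ h
          exact mul_left_cancel h)
    have h2 : ((Finset.univ.filter (fun g : G => g • a = a)).image
        (fun g : G => g * x * g⁻¹)).card ≤ e := by
      refine le_trans (Finset.card_le_card ?_) hI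
      intro v hv
      rw [Finset.mem_image] at hv
      obtain ⟨g, hg, rfl⟩ := hv
      rw [Finset.mem_filter] at hg ⊢
      refine ⟨Finset.mem_univ _, ?_, ?_⟩
      · rw [inv_iff]
        refine ⟨?_, ?_⟩
        · calc g * x * g⁻¹ * (g * x * g⁻¹) = g * (x * x) * g⁻¹ := by group
            _ = 1 := by rw [hxx]; group
        · intro h
          apply hx1
          have : x = g⁻¹ * (g * x * g⁻¹) * g := by group
          rw [this, h]; group
      · rw [mul_smul, mul_smul, inv_smul_eq_iff.mpr hg.2.symm, hxa, hg.2]
    rw [hGa] at h1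
    have h3' : (Fintype.card Ω - 1) * e ≤ ((Finset.univ.filter (fun g : G => g • a = a)).filter
        (fun g : G => g * x = x * g)).card * e :=
      le_trans h1 (Nat.mul_le_mul_left _ h2)
    exact Nat.le_of_mul_le_mul_right h3' hepos
  -- the centralizer consists of elements fixing only a
  have hsub : (Finset.univ.filter (fun g : G => g • a = a)).filter (fun g : G => g * x = x * g)
      ⊆ (Finset.univ.filter (fun g : G => g • a = a)).filter
        (fun g : G => g = 1 ∨ ∀ c : Ω, g • c = c → c = a) := by
    intro g hg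
    rw [Finset.mem_filter] at hg ⊢
    refine ⟨hg.1, ?_⟩
    by_cases hg1 : g = 1
    · exact Or.inl hg1
    · right
      intro c hc
      by_contra hca
      have hga : g • a = a := (Finset.mem_filter.mp hg.1).2
      have hgxc : g • (x • c) = x • c := by
        rw [← mul_smul, hg.2, mul_smul, hc]
      have h1 : c ≠ x • c := fun h => hca (hfix1 x hx c a h.symm hxa)
      have h2 : a ≠ x • c := by
        intro h
        apply hca
        have : x • a = x • c := by rw [hxa]; exact h
        exact (MulAction.injective x this).symm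
      exact hg1 (h3 g a c (x • c) (Ne.symm hca) h1 h2 hga hc hgxc)
  have heq := Finset.eq_of_subset_of_card_le hsub (le_trans hHa_card hC)
  have hyH : y ∈ (Finset.univ.filter (fun g : G => g • a = a)).filter
      (fun g : G => g = 1 ∨ ∀ c : Ω, g • c = c → c = a) := by
    rw [Finset.mem_filter, Finset.mem_filter]
    exact ⟨⟨Finset.mem_univ _, hya⟩, Or.inr (fun c hc => hfix1 y hy c a hc hya)⟩
  rw [← heq, Finset.mem_filter] at hyH
  have hcomm : y * x = x * y := hyH.2
  rw [inv_iff]
  refine ⟨?_, hu1⟩
  rw [← hxy]
  calc x * y * (x * y) = x * (y * x) * y := by group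
    _ = x * (x * y) * y := by rw [hcomm]
    _ = (x * x) * (y * y) := by group
    _ = 1 := by rw [hxx, hyy, one_mul]

end Cfsg.Agent.Lib.Helper8.ZC
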